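import Cfsg.Agent.Lib.Helper59.ASU9.Defs
import Cfsg.Agent.Lib.Helper59.Asch9.PR8

set_option autoImplicit false

namespace Cfsg.Agent.Lib.Helper59.ASU9

open Cfsg Cfsg.Geo Cfsg.Agent.Lib.Helper77.Asch Cfsg.Agent.Lib.Helper77.AschG Cfsg.Agent.Lib.Helper32.AschU
  Cfsg.Agent.Lib.Helper80.AS Cfsg.Agent.Lib.Helper47.UC
open scoped MatrixGroups Matrix Kronecker

variable {n : ℕ} {F : Type*} [Field F]

/-- the pure tensor of two vectors, indexed by `Fin 2 → Fin m`. -/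
def twsT {m : ℕ} (u w : Fin m → F) : (Fin 2 → Fin m) → F := fun z => u (z 0) * w (z 1)

theorem tws_mul_mulVec {ι : Type*} [Fintype ι] [DecidableEq ι] (a c : GL ι F) (u : ι → F) :
    ((a * c : GL ι F) : Matrix ι ι F) *ᵥ u = (a : Matrix ι ι F) *ᵥ ((c : Matrix ι ι F) *ᵥ u) := by
  rw [Units.val_mul, Matrix.mulVec_mulVec]

theorem tws_mul_inv_mulVec {ι : Type*} [Fintype ι] [DecidableEq ι] (a : GL ι F) (u : ι → F) :
    (a : Matrix ι ι F) *ᵥ (((a⁻¹ : GL ι F) : Matrix ι ι F) *ᵥ u) = u := by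
  rw [Matrix.mulVec_mulVec, ← Units.val_mul, mul_inv_cancel, Units.val_one, Matrix.one_mulVec]

theorem tws_perm2 : ∀ σ : Equiv.Perm (Fin 2), σ = 1 ∨ σ = Equiv.swap 0 1 := by
  decide

/-- the two alternatives of `tws`. -/
def TwsA {m : ℕ} (g : GL (Fin 2 → Fin m) F) : Prop :=
  ∃ a b : GL (Fin m) F, ∀ u w : Fin m → F,
    (g : Matrix (Fin 2 → Fin m) (Fin 2 → Fin m) F) *ᵥ twsT u w =
      twsT ((a : Matrix (Fin m) (Fin m) F) *ᵥ u) ((b : Matrix (Fin m) (Fin m) F) *ᵥ w)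

def TwsB {m : ℕ} (g : GL (Fin 2 → Fin m) F) : Prop :=
  ∃ a b : GL (Fin m) F, ∀ u w : Fin m → F,
    (g : Matrix (Fin 2 → Fin m) (Fin 2 → Fin m) F) *ᵥ twsT u w =
      twsT ((a : Matrix (Fin m) (Fin m) F) *ᵥ w) ((b : Matrix (Fin m) (Fin m) F) *ᵥ u)

theorem tws_aux {m : ℕ} (g : GL (Fin 2 → Fin m) F) (hg : g ∈ tensorWreathStandard m 2 F) :
    TwsA g ∨ TwsB g := by
  unfold tensorWreathStandard at hg
  induction hg using Subgroup.closure_induction with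
  | mem x hx =>
    rcases hx with ⟨gs, hgs⟩ | ⟨σ, hσ⟩
    · left
      refine ⟨gs 0, gs 1, fun u w => ?_⟩
      funext z
      have := Cfsg.Agent.Lib.Helper59.Asch9.pr8_pure_mulVec _
        (fun i => (gs i : Matrix (Fin m) (Fin m) F)) hgs ![u, w] (twsT u w)
        (by intro x; simp [twsT, Fin.prod_univ_two]) z
      rw [this]
      simp [twsT, Fin.prod_univ_two]
    · have h1 := Cfsg.Agent.Lib.Helper59.Asch9.pr8_perm_mulVec _ σ hσ
      rcases tws_perm2 σ with rfl | rfl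
      · left
        refine ⟨1, 1, fun u w => ?_⟩
        funext z
        rw [h1]
        simp [twsT]
      · right
        refine ⟨1, 1, fun u w => ?_⟩
        funext z
        rw [h1]
        simp [twsT, mul_comm]
  | one =>
    left
    exact ⟨1, 1, fun u w => by simp⟩
  | mul x y _ _ hx hy =>
    rcases hx with ⟨a, b, hab⟩ | ⟨a, b, hab⟩ <;> rcases hy with ⟨c, d, hcd⟩ | ⟨c, d, hcd⟩
    · left
      refine ⟨a * c, b * d, fun u w => ?_⟩
      rw [tws_mul_mulVec, hcd, hab, tws_mul_mulVec, tws_mul_mulVec]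
    · right
      refine ⟨a * c, b * d, fun u w => ?_⟩
      rw [tws_mul_mulVec, hcd, hab, tws_mul_mulVec, tws_mul_mulVec]
    · right
      refine ⟨a * d, b * c, fun u w => ?_⟩
      rw [tws_mul_mulVec, hcd, hab, tws_mul_mulVec, tws_mul_mulVec]
    · left
      refine ⟨a * d, b * c, fun u w => ?_⟩
      rw [tws_mul_mulVec, hcd, hab, tws_mul_mulVec, tws_mul_mulVec]
  | inv x _ hx =>
    rcases hx with ⟨a, b, hab⟩ | ⟨a, b, hab⟩
    · left
      refine ⟨a⁻¹, b⁻¹, fun u w => ?_⟩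
      apply Cfsg.Agent.Lib.Helper59.Asch9.pr8_inv_mulVec
      rw [hab, tws_mul_inv_mulVec, tws_mul_inv_mulVec]
    · right
      refine ⟨b⁻¹, a⁻¹, fun u w => ?_⟩
      apply Cfsg.Agent.Lib.Helper59.Asch9.pr8_inv_mulVec
      rw [hab, tws_mul_inv_mulVec, tws_mul_inv_mulVec]

/-- TWS (structure of the standard tensor wreath group with two factors). -/
theorem tws {m : ℕ} (g : GL (Fin 2 → Fin m) F) (hg : g ∈ tensorWreathStandard m 2 F) :
    (∃ a b : GL (Fin m) F, ∀ u w : Fin m → F, (g : Matrix (Fin 2 → Fin m) (Fin 2 → Fin m) F) *ᵥ (fun z => u (z 0) * w (z 1)) =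
      fun z => ((a : Matrix (Fin m) (Fin m) F) *ᵥ u) (z 0) * ((b : Matrix (Fin m) (Fin m) F) *ᵥ w) (z 1)) ∨
    (∃ a b : GL (Fin m) F, ∀ u w : Fin m → F, (g : Matrix (Fin 2 → Fin m) (Fin 2 → Fin m) F) *ᵥ (fun z => u (z 0) * w (z 1)) =
      fun z => ((a : Matrix (Fin m) (Fin m) F) *ᵥ w) (z 0) * ((b : Matrix (Fin m) (Fin m) F) *ᵥ u) (z 1)) :=
  tws_aux g hg

end Cfsg.Agent.Lib.Helper59.ASU9
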