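import Cfsg.Agent.Lib.Helper59.ASU9.Defs
import Cfsg.Agent.Lib.Helper17.Herm

/-! Ladder ASU9, rung HUF: the standard hermitian form is a unitary form with Gram matrix `1`. -/

set_option autoImplicit false

namespace Cfsg.Agent.Lib.Helper59.ASU9

open Cfsg Cfsg.Geo Cfsg.Agent.Lib.Helper77.Asch Cfsg.Agent.Lib.Helper77.AschG Cfsg.Agent.Lib.Helper32.AschU
  Cfsg.Agent.Lib.Helper80.AS Cfsg.Agent.Lib.Helper47.UC
open scoped MatrixGroups Matrix Kronecker

variable {n : ℕ} {F : Type*} [Field F]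

theorem hermForm_unitaryPow [Fintype F] (q : ℕ) (hF : Fintype.card F = q ^ 2) (m : ℕ) :
    IsUnitaryFormPow q (hermForm m F q) ∧ gramMatrix (hermForm m F q) = 1 := by
  have hq : 2 ≤ q := Cfsg.Agent.Lib.Helper17.two_le_of_card_sq hF
  have hq0 : q ≠ 0 := by omega
  refine ⟨⟨fun x y v => Cfsg.Agent.Lib.Helper17.hermForm_add_left q m x y v,
    fun c x v => Cfsg.Agent.Lib.Helper17.hermForm_smul_left q m c x v,
    fun v w => (Cfsg.Agent.Lib.Helper17.hermForm_conj hF m w v).symm, ?_⟩, ?_⟩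
  · intro v hv
    obtain ⟨i, hi⟩ : ∃ i, v i ≠ 0 := by
      by_contra hcon
      push Not at hcon
      exact hv (funext hcon)
    refine ⟨⟨Pi.single i 1, ?_⟩, ⟨Pi.single i 1, ?_⟩⟩
    · rw [Cfsg.Agent.Lib.Helper17.hermForm_single_left]
      exact pow_ne_zero _ hi
    · rw [Cfsg.Agent.Lib.Helper17.hermForm_single_right q m hq0]
      exact hi
  · ext a b
    show hermForm m F q (Pi.single a 1) (Pi.single b 1) = _
    rw [Cfsg.Agent.Lib.Helper17.hermForm_single_right q m hq0, Matrix.one_apply, Pi.single_apply]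
    by_cases h : a = b
    · subst h; simp
    · rw [if_neg h, if_neg (fun h' => h h'.symm)]

end Cfsg.Agent.Lib.Helper59.ASU9
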