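import Cfsg.Agent.Lib.Helper59.ASU9.Defs
import Cfsg.Agent.Lib.Helper17.Herm
import Cfsg.Agent.Lib.Helper50.GUFrames
import Cfsg.Agent.S0144

/-! Ladder ASU9, rung GU32: the similarity group of the hermitian form on `F₄³` is solvable. -/

set_option autoImplicit false

namespace Cfsg.Agent.Lib.Helper59.ASU9

open Cfsg Cfsg.Geo
open scoped MatrixGroups Matrix Kronecker

variable {n : ℕ} {F : Type*} [Field F]

theorem gu32_sim_eq [Fintype F] (hF : Fintype.card F = 2 ^ 2) :
    similarityGroup (hermForm 3 F 2) = GU 3 F 2 := by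
  apply le_antisymm
  · intro g hg
    obtain ⟨l, hl⟩ := hg
    have h1 : hermForm 3 F 2 (Pi.single 0 1) (Pi.single 0 1) = 1 := by
      rw [Cfsg.Agent.Lib.Helper17.hermForm_single_left]
      simp
    have h2 := hl (Pi.single 0 1) (Pi.single 0 1)
    rw [h1, mul_one] at h2
    have h3 := Cfsg.Agent.Lib.Helper17.hermForm_conj hF 3
      ((g : Matrix (Fin 3) (Fin 3) F) *ᵥ Pi.single 0 1) ((g : Matrix (Fin 3) (Fin 3) F) *ᵥ Pi.single 0 1)
    rw [h2] at h3
    have h4 : (l : F) = 1 := by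
      have h5 : (l : F) * ((l : F) - 1) = 0 := by
        have : (l : F) * ((l : F) - 1) = (l : F) ^ 2 - l := by ring
        rw [this, h3, sub_self]
      rcases mul_eq_zero.1 h5 with h6 | h6
      · exact absurd h6 l.ne_zero
      · exact sub_eq_zero.1 h6
    rw [Cfsg.Agent.Lib.Helper50.Herm.mem_GU_iff]
    intro u v
    rw [hl, h4, one_mul]
  · intro g hg
    refine ⟨1, fun u v => ?_⟩
    have := (Cfsg.Agent.Lib.Helper50.Herm.mem_GU_iff 3 g).1 hg u v
    rw [this, Units.val_one, one_mul]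

theorem solvable_sim32 [Fintype F] (hF : Fintype.card F = 2 ^ 2) : Group.IsSolvable (similarityGroup (hermForm 3 F 2)) := by
  rw [gu32_sim_eq hF]
  have hcard : Nat.card (GU 3 F 2) = 2 ^ 3 * 3 ^ 4 := by
    rw [Cfsg.Agent.Lib.Helper50.Herm.card_GU hF 3]
    decide
  exact Cfsg.Agent.S0144.result 2 3 3 4 Nat.prime_two Nat.prime_three hcard

end Cfsg.Agent.Lib.Helper59.ASU9
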