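import Cfsg.Agent.Lib.Helper59.ASU9.Defs
import Cfsg.Agent.Lib.Helper59.ASU9.GU32
import Cfsg.Agent.Lib.Helper77.AschG.PT

set_option autoImplicit false

namespace Cfsg.Agent.Lib.Helper59.ASU9

open Cfsg Cfsg.Geo Cfsg.Agent.Lib.Helper77.Asch Cfsg.Agent.Lib.Helper77.AschG Cfsg.Agent.Lib.Helper32.AschU
  Cfsg.Agent.Lib.Helper80.AS Cfsg.Agent.Lib.Helper47.UC
open scoped MatrixGroups Matrix Kronecker

variable {n : ℕ} {F : Type*} [Field F]

theorem qsol_tw_mul {a k : ℕ} (e : Fin n ≃ (Fin k → Fin a)) (P : GL (Fin n) F)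
    (M N : Matrix (Fin k → Fin a) (Fin k → Fin a) F) : tw e P M * tw e P N = tw e P (M * N) := by
  unfold tw
  have h : ((P⁻¹ : GL (Fin n) F) : Matrix (Fin n) (Fin n) F) * (P : Matrix (Fin n) (Fin n) F) = 1 := by
    rw [← Units.val_mul, inv_mul_cancel, Units.val_one]
  have hr : Matrix.reindex e.symm e.symm (M * N)
      = Matrix.reindex e.symm e.symm M * Matrix.reindex e.symm e.symm N := by
    simp [Matrix.reindex_apply, Matrix.submatrix_mul_equiv]
  rw [hr]
  generalize Matrix.reindex e.symm e.symm M = A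
  generalize Matrix.reindex e.symm e.symm N = B
  calc (P : Matrix (Fin n) (Fin n) F) * A * ((P⁻¹ : GL (Fin n) F) : Matrix (Fin n) (Fin n) F)
        * ((P : Matrix (Fin n) (Fin n) F) * B * ((P⁻¹ : GL (Fin n) F) : Matrix (Fin n) (Fin n) F))
      = (P : Matrix (Fin n) (Fin n) F) * A * (((P⁻¹ : GL (Fin n) F) : Matrix (Fin n) (Fin n) F)
        * (P : Matrix (Fin n) (Fin n) F)) * B * ((P⁻¹ : GL (Fin n) F) : Matrix (Fin n) (Fin n) F) := by
        simp only [mul_assoc]
    _ = (P : Matrix (Fin n) (Fin n) F) * (A * B) * ((P⁻¹ : GL (Fin n) F) : Matrix (Fin n) (Fin n) F) := by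
        rw [h, mul_one]; simp only [mul_assoc]

theorem qsol_tw_one {a k : ℕ} (e : Fin n ≃ (Fin k → Fin a)) (P : GL (Fin n) F) :
    tw e P (1 : Matrix (Fin k → Fin a) (Fin k → Fin a) F) = 1 := by
  unfold tw
  have hr : Matrix.reindex e.symm e.symm (1 : Matrix (Fin k → Fin a) (Fin k → Fin a) F) = 1 := by
    simp [Matrix.reindex_apply]
  rw [hr, mul_one, ← Units.val_mul, mul_inv_cancel, Units.val_one]

theorem qsol_tw_injective {a k : ℕ} (e : Fin n ≃ (Fin k → Fin a)) (P : GL (Fin n) F)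
    {M N : Matrix (Fin k → Fin a) (Fin k → Fin a) F} (h : tw e P M = tw e P N) : M = N := by
  unfold tw at h
  rw [Units.mul_left_inj, Units.mul_right_inj] at h
  exact (Matrix.reindex e.symm e.symm).injective h

theorem qsol_tw_mulVec {a k : ℕ} (e : Fin n ≃ (Fin k → Fin a)) (P : GL (Fin n) F)
    (M : Matrix (Fin k → Fin a) (Fin k → Fin a) F) (x : (Fin k → Fin a) → F) :
    tw e P M *ᵥ ((P : Matrix (Fin n) (Fin n) F) *ᵥ (x ∘ e)) = (P : Matrix (Fin n) (Fin n) F) *ᵥ ((M *ᵥ x) ∘ e) := by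
  unfold tw
  have h : ((P⁻¹ : GL (Fin n) F) : Matrix (Fin n) (Fin n) F) * (P : Matrix (Fin n) (Fin n) F) = 1 := by
    rw [← Units.val_mul, inv_mul_cancel, Units.val_one]
  rw [Matrix.mulVec_mulVec, mul_assoc, h, mul_one, ← Matrix.mulVec_mulVec]
  congr 1
  rw [Matrix.reindex_apply, Matrix.submatrix_mulVec_equiv]
  have hx : (x ∘ ⇑e) ∘ ⇑e.symm.symm.symm = x := by
    funext z
    simp
  rw [hx]
  rfl

theorem qsol_gram : gramMatrix (hermForm 3 F 2) = (1 : Matrix (Fin 3) (Fin 3) F) := by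
  ext a b
  simp [gramMatrix, hermForm, Pi.single_apply, Matrix.one_apply, eq_comm]

theorem qsol_T (x y : (Fin 2 → Fin 3) → F) :
    ∑ a, ∑ b, x a * (∏ j, gramMatrix (hermForm 3 F 2) (a j) (b j)) * (y b) ^ 2 = ∑ a, x a * (y a) ^ 2 := by
  refine Finset.sum_congr rfl fun a _ => ?_
  rw [Finset.sum_eq_single a]
  · rw [qsol_gram]; simp
  · intro b _ hb
    rw [qsol_gram]
    obtain ⟨j, hj⟩ := Function.ne_iff.1 hb
    have h0 : ∏ j, (1 : Matrix (Fin 3) (Fin 3) F) (a j) (b j) = 0 :=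
      Finset.prod_eq_zero (Finset.mem_univ j) (Matrix.one_apply_ne (Ne.symm hj))
    rw [h0]; simp
  · simp

/-- the vector `u ⊗ e₀` (with `u` in slot `i`). -/
def qsolEmb (i : Fin 2) (u : Fin 3 → F) : (Fin 2 → Fin 3) → F :=
  fun a => if ∀ j, j ≠ i → a j = 0 then u (a i) else 0

theorem qsol_sum (i : Fin 2) (f : (Fin 2 → Fin 3) → F) (hf : ∀ b, (¬ ∀ j, j ≠ i → b j = 0) → f b = 0) :
    ∑ b, f b = ∑ t : Fin 3, f (Function.update (fun _ => 0) i t) := by
  symm
  refine Finset.sum_of_injOn (fun t => Function.update (fun _ => 0) i t) ?_ ?_ ?_ ?_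
  · intro s _ t _ hst
    have := congrFun hst i
    simpa using this
  · intro _ _; exact Finset.mem_coe.2 (Finset.mem_univ _)
  · intro b _ hb
    apply hf
    intro h
    apply hb
    refine ⟨b i, by simp, ?_⟩
    funext j
    by_cases hj : j = i
    · subst hj; simp
    · simp [Function.update_of_ne hj, h j hj]
  · intro _ _; rfl

theorem qsol_emb_update (i : Fin 2) (u : Fin 3 → F) (t : Fin 3) :
    qsolEmb i u (Function.update (fun _ => 0) i t) = u t := by
  unfold qsolEmb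
  rw [if_pos (fun j hj => by rw [Function.update_of_ne hj]), Function.update_self]

theorem qsol_slot_emb (i : Fin 2) (X : Matrix (Fin 3) (Fin 3) F) (u : Fin 3 → F) :
    slot i X *ᵥ qsolEmb i u = qsolEmb i (X *ᵥ u) := by
  funext a
  rw [Matrix.mulVec, dotProduct]
  rw [qsol_sum i]
  · simp only [qsol_emb_update, slot_apply, Function.update_self]
    unfold qsolEmb
    by_cases h : ∀ j, j ≠ i → a j = 0
    · rw [if_pos h]
      rw [Matrix.mulVec, dotProduct]
      refine Finset.sum_congr rfl fun t _ => ?_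
      rw [if_pos (fun j hj => by rw [Function.update_of_ne hj, h j hj])]
    · rw [if_neg h]
      refine Finset.sum_eq_zero fun t _ => ?_
      rw [if_neg (fun h' => h (fun j hj => by rw [h' j hj, Function.update_of_ne hj])), zero_mul]
  · intro b hb
    unfold qsolEmb
    rw [if_neg hb, mul_zero]

theorem qsol_herm_emb (i : Fin 2) (u v : Fin 3 → F) :
    ∑ a, qsolEmb i u a * (qsolEmb i v a) ^ 2 = hermForm 3 F 2 u v := by
  rw [qsol_sum i]
  · simp only [qsol_emb_update]; rfl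
  · intro b hb
    unfold qsolEmb
    rw [if_neg hb, zero_mul]

/-- QSOL. -/
theorem solvable_of_slot [Fintype F] (hF : Fintype.card F = 2 ^ 2) (e' : Fin n ≃ (Fin 2 → Fin 3)) (P' : GL (Fin n) F)
    (hT : IsTensorPowerFormStructure (fun x : F => x ^ 2) (hermForm n F 2) (hermForm 3 F 2) e' P') (i : Fin 2)
    (Q : Subgroup (GL (Fin n) F)) (hQs : Q ≤ similarityGroup (hermForm n F 2))
    (hQ : ∀ g ∈ Q, ∃ x : Matrix (Fin 3) (Fin 3) F, (g : Matrix (Fin n) (Fin n) F) = tw e' P' (slot i x)) :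
    Group.IsSolvable Q := by
  classical
  choose! X hX using hQ
  have hinj : ∀ x y : Matrix (Fin 3) (Fin 3) F, tw e' P' (slot i x) = tw e' P' (slot i y) → x = y :=
    fun x y h => slot_injective i (qsol_tw_injective e' P' h)
  let ψ₀ : Q →* Matrix (Fin 3) (Fin 3) F :=
    { toFun := fun g => X g.1
      map_one' := by
        apply hinj
        rw [← hX _ (1 : Q).2, slot_one, qsol_tw_one]
        rfl
      map_mul' := fun g h => by
        apply hinj
        rw [← slot_mul, ← qsol_tw_mul, ← hX _ g.2, ← hX _ h.2, ← hX _ (g * h).2]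
        rfl }
  let ψ : Q →* GL (Fin 3) F := ψ₀.toHomUnits
  have hψ : ∀ g : Q, ((ψ g : GL (Fin 3) F) : Matrix (Fin 3) (Fin 3) F) = X g.1 := fun g => rfl
  have hmem : ∀ g : Q, ψ g ∈ similarityGroup (hermForm 3 F 2) := by
    intro g
    obtain ⟨l, hl⟩ := hQs g.2
    obtain ⟨c, hc0, hc⟩ := hT
    have hc' : ∀ x y : (Fin 2 → Fin 3) → F,
        hermForm n F 2 ((P' : Matrix (Fin n) (Fin n) F) *ᵥ (x ∘ e')) ((P' : Matrix (Fin n) (Fin n) F) *ᵥ (y ∘ e')) =
          c * ∑ a, ∑ b, x a * (∏ j, gramMatrix (hermForm 3 F 2) (a j) (b j)) * (y b) ^ 2 := hc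
    refine ⟨l, fun u v => ?_⟩
    have h1 := hl ((P' : Matrix (Fin n) (Fin n) F) *ᵥ (qsolEmb i u ∘ e'))
      ((P' : Matrix (Fin n) (Fin n) F) *ᵥ (qsolEmb i v ∘ e'))
    rw [hX _ g.2, qsol_tw_mulVec, qsol_tw_mulVec, qsol_slot_emb, qsol_slot_emb, hc', hc', qsol_T, qsol_T,
      qsol_herm_emb, qsol_herm_emb] at h1
    rw [hψ]
    apply mul_left_cancel₀ hc0
    rw [h1]; ring
  let ψ' : Q →* similarityGroup (hermForm 3 F 2) := ψ.codRestrict _ hmem
  have hinjψ : Function.Injective ψ' := by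
    intro g h hgh
    have h1 : X g.1 = X h.1 :=
      congrArg (fun z : similarityGroup (hermForm 3 F 2) => ((z : GL (Fin 3) F) : Matrix (Fin 3) (Fin 3) F)) hgh
    apply Subtype.ext
    apply Units.ext
    rw [hX _ g.2, hX _ h.2, h1]
  have := solvable_sim32 hF
  exact Group.isSolvable_of_isSolvable_injective hinjψ

end Cfsg.Agent.Lib.Helper59.ASU9
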