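import Cfsg.Agent.Lib.Helper47.UC.Defs
import Cfsg.Agent.Lib.Helper77.AschG.DefsB

/-! Ladder ASU9 (S5832): Aschbacher's theorem for SU_9(q) (definitions). -/

set_option autoImplicit false

namespace Cfsg.Agent.Lib.Helper59.ASU9

open Cfsg Cfsg.Geo
open scoped MatrixGroups Matrix Kronecker

variable {n : ℕ} {F : Type*} [Field F]

/-- from the index set `Fin 3 × Fin 3` of a tensor product to the index set `Fin 2 → Fin 3` of a tensor power. -/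
abbrev eW (e : Fin n ≃ Fin 3 × Fin 3) : Fin n ≃ (Fin 2 → Fin 3) :=
  e.trans (finTwoArrowEquiv (Fin 3)).symm

/-- `H` lies in a member of one of the unitary geometric classes in dimension 9 (tensor products `3 ⊗ 3` kept apart). -/
def InGeo9 [Fintype F] (q : ℕ) (H : Subgroup (GL (Fin 9) F)) : Prop :=
  (∃ W : Submodule F (Fin 9 → F), W ≠ ⊥ ∧ IsTotallySingularFor (hermForm 9 F q) W ∧
      H ≤ subspaceStabilizer W) ∨
  (∃ W : Submodule F (Fin 9 → F), W ≠ ⊥ ∧ IsNondegenerateOn (hermForm 9 F q) W ∧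
      2 * Module.finrank F W < 9 ∧ H ≤ subspaceStabilizer W) ∨
  (∃ (t m : ℕ) (D : Fin t → Submodule F (Fin 9 → F)), IsNondegenerateMDecomposition (hermForm 9 F q) m D ∧
      H ≤ decompositionStabilizer D) ∨
  (∃ K : Subalgebra F (Matrix (Fin 9) (Fin 9) F), IsFieldSubalgebra 3 K ∧
      IsAdjointClosedFor (hermForm 9 F q) K ∧ H ≤ subalgebraNormalizer K) ∨
  (∃ (F₀ : Subfield F) (r : ℕ) (P : GL (Fin 9) F), r.Prime ∧ Odd r ∧ Fintype.card F = Nat.card F₀ ^ r ∧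
      IsFormRationalStructure (hermForm 9 F q) F₀ 1 P ∧ H ≤ subfieldSubgroup F₀ P) ∨
  (Odd q ∧ ∃ (F₀ : Subfield F) (P : GL (Fin 9) F), Fintype.card F = Nat.card F₀ ^ 2 ∧
      IsFormRationalStructure (hermForm 9 F q) F₀ 1 P ∧ H ≤ subfieldSubgroup F₀ P) ∨
  (∃ (p : ℕ) (R : Subgroup (GL (Fin 9) F)), p.Prime ∧ q = p ∧ p % 3 = 2 ∧ IsSymplecticTypeGroup 3 R ∧
      ActsAbsolutelyIrreducibly (matrixSet R) ∧ R ≤ similarityGroup (hermForm 9 F q) ∧ Nat.card R = 243 ∧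
      Nat.card (Subgroup.center R) = 3 ∧ ⁅R, R⁆ ≤ scalars (Fin 9) F ∧ H ≤ subgroupNormalizer R) ∨
  (∃ (e : Fin 9 ≃ Fin 3 × Fin 3) (P : GL (Fin 9) F) (f₁ f₂ : (Fin 3 → F) → (Fin 3 → F) → F),
      IsUnitaryFormPow q f₁ ∧ IsUnitaryFormPow q f₂ ∧
      IsTensorFormStructure (fun x : F => x ^ q) (hermForm 9 F q) f₁ f₂ e P ∧
      H ≤ tensorProductSubgroup 3 3 e P) ∨
  (3 ≤ q ∧ ∃ (e : Fin 9 ≃ (Fin 2 → Fin 3)) (P : GL (Fin 9) F),
      IsTensorPowerFormStructure (fun x : F => x ^ q) (hermForm 9 F q) (hermForm 3 F q) e P ∧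
      H ≤ tensorWreathSubgroup 3 2 e P)

end Cfsg.Agent.Lib.Helper59.ASU9
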