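import Cfsg.Agent.Lib.Helper59.ASU9.Defs
import Cfsg.Agent.Lib.Helper50.NormFq2
import Cfsg.Agent.Lib.Helper17.UnitHyp

set_option autoImplicit false

namespace Cfsg.Agent.Lib.Helper59.ASU9

open Cfsg Cfsg.Geo Cfsg.Agent.Lib.Helper77.Asch Cfsg.Agent.Lib.Helper77.AschG Cfsg.Agent.Lib.Helper32.AschU
  Cfsg.Agent.Lib.Helper80.AS Cfsg.Agent.Lib.Helper47.UC
open scoped MatrixGroups Matrix Kronecker

variable {n : ℕ} {F : Type*} [Field F]

section ONB
variable [Fintype F] {q : ℕ} {m : ℕ} {f : (Fin m → F) → (Fin m → F) → F}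

theorem onb_add_right (hF : Fintype.card F = q ^ 2) (hf : IsUnitaryFormPow q f) (x y z : Fin m → F) :
    f x (y + z) = f x y + f x z := by
  rw [hf.herm, hf.add_left, Cfsg.Agent.Lib.Helper17.add_pow_q hF, ← hf.herm, ← hf.herm]

omit [Fintype F] in
theorem onb_smul_right (hf : IsUnitaryFormPow q f) (c : F) (x y : Fin m → F) :
    f x (c • y) = c ^ q * f x y := by
  rw [hf.herm, hf.smul_left, mul_pow, ← hf.herm]

omit [Fintype F] in
theorem onb_zero_left (hf : IsUnitaryFormPow q f) (y : Fin m → F) : f 0 y = 0 := by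
  have := hf.smul_left 0 0 y
  simpa using this

omit [Fintype F] in
theorem onb_sum_left (hf : IsUnitaryFormPow q f) {ι : Type*} (s : Finset ι) (g : ι → (Fin m → F))
    (y : Fin m → F) : f (∑ i ∈ s, g i) y = ∑ i ∈ s, f (g i) y := by
  classical
  induction s using Finset.induction_on with
  | empty => simp [onb_zero_left hf]
  | insert a s ha ih => rw [Finset.sum_insert ha, Finset.sum_insert ha, hf.add_left, ih]

theorem onb_sum_right (hF : Fintype.card F = q ^ 2) (hf : IsUnitaryFormPow q f) {ι : Type*}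
    (s : Finset ι) (g : ι → (Fin m → F)) (x : Fin m → F) :
    f x (∑ i ∈ s, g i) = ∑ i ∈ s, f x (g i) := by
  rw [hf.herm, onb_sum_left hf, Cfsg.Agent.Lib.Helper17.sum_pow_q hF]
  exact Finset.sum_congr rfl (fun i _ => (hf.herm _ _).symm)

/-- the linear form `x ↦ f x y`. -/
def onbL (hf : IsUnitaryFormPow q f) (y : Fin m → F) : (Fin m → F) →ₗ[F] F where
  toFun x := f x y
  map_add' a b := hf.add_left a b y
  map_smul' c a := hf.smul_left c a y

theorem onb_polar (hF : Fintype.card F = q ^ 2) (hf : IsUnitaryFormPow q f)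
    (W : Submodule F (Fin m → F)) (h0 : ∀ x ∈ W, f x x = 0) : ∀ x ∈ W, ∀ y ∈ W, f x y = 0 := by
  intro x hx y hy
  by_contra ht
  obtain ⟨e, he⟩ := Cfsg.Agent.Lib.Helper17.exists_trace_ne_zero hF
  have h1 := h0 (x + (e * f x y) • y) (W.add_mem hx (W.smul_mem _ hy))
  rw [hf.add_left, onb_add_right hF hf, onb_add_right hF hf, hf.smul_left, hf.smul_left,
    onb_smul_right hf, onb_smul_right hf, h0 x hx, h0 y hy, hf.herm y x] at h1
  have h2 : (e + e ^ q) * (f x y * f x y ^ q) = 0 := by
    rw [mul_pow] at h1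
    linear_combination h1
  rcases mul_eq_zero.mp h2 with h | h
  · exact he h
  · rcases mul_eq_zero.mp h with h | h
    · exact ht h
    · exact ht (pow_eq_zero_iff (by
        have := Cfsg.Agent.Lib.Helper17.two_le_of_card_sq hF
        omega) |>.mp h)

theorem onb_step (hF : Fintype.card F = q ^ 2) (hf : IsUnitaryFormPow q f) (k : ℕ) (hk : k < m)
    (v : Fin k → (Fin m → F)) (hv : ∀ i j, f (v i) (v j) = if i = j then 1 else 0) :
    ∃ w, f w w = 1 ∧ ∀ i, f w (v i) = 0 := by
  have hq : 2 ≤ q := Cfsg.Agent.Lib.Helper17.two_le_of_card_sq hF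
  let Φ : (Fin m → F) →ₗ[F] (Fin k → F) := LinearMap.pi (fun i => onbL hf (v i))
  have hker : LinearMap.ker Φ ≠ ⊥ := LinearMap.ker_ne_bot_of_finrank_lt (by simpa using hk)
  have hmem : ∀ x, x ∈ LinearMap.ker Φ ↔ ∀ i, f x (v i) = 0 := by
    intro x
    rw [LinearMap.mem_ker]
    constructor
    · intro h i
      exact congrFun h i
    · intro h
      ext i
      exact h i
  by_cases hall : ∀ x ∈ LinearMap.ker Φ, f x x = 0
  · exfalso
    obtain ⟨w, hwW, hw0⟩ := Submodule.exists_mem_ne_zero_of_ne_bot hker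
    obtain ⟨x, hx⟩ := (hf.nondegenerate w hw0).1
    have hdec : x = (x - ∑ i, f x (v i) • v i) + ∑ i, f x (v i) • v i := by abel
    have hx' : (x - ∑ i, f x (v i) • v i) ∈ LinearMap.ker Φ := by
      rw [hmem]
      intro j
      have h1 : f x (v j) = f (x - ∑ i, f x (v i) • v i) (v j) + f (∑ i, f x (v i) • v i) (v j) := by
        rw [← hf.add_left, ← hdec]
      have h2 : f (∑ i, f x (v i) • v i) (v j) = f x (v j) := by
        rw [onb_sum_left hf, Finset.sum_eq_single j]
        · rw [hf.smul_left, hv, if_pos rfl, mul_one]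
        · intro b _ hb
          rw [hf.smul_left, hv, if_neg hb, mul_zero]
        · intro h
          exact absurd (Finset.mem_univ _) h
      rw [h2] at h1
      linear_combination -h1
    apply hx
    rw [hdec, hf.add_left, onb_polar hF hf _ hall _ hx' _ hwW, onb_sum_left hf, zero_add]
    apply Finset.sum_eq_zero
    intro i _
    rw [hf.smul_left, hf.herm (v i) w, (hmem w).mp hwW i, zero_pow (by omega), mul_zero]
  · push Not at hall
    obtain ⟨w, hwW, hww⟩ := hall
    obtain ⟨c, hc0, hc⟩ := Cfsg.Agent.Lib.Helper50.exists_norm_eq hF (f w w) hww (hf.herm w w).symm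
    refine ⟨c⁻¹ • w, ?_, ?_⟩
    · rw [hf.smul_left, onb_smul_right hf, ← hc, inv_pow, pow_succ]
      field_simp
    · intro i
      rw [hf.smul_left, (hmem w).mp hwW i, mul_zero]

theorem onb_family (hF : Fintype.card F = q ^ 2) (hf : IsUnitaryFormPow q f) :
    ∀ k, k ≤ m → ∃ v : Fin k → (Fin m → F), ∀ i j, f (v i) (v j) = if i = j then 1 else 0 := by
  have hq : 2 ≤ q := Cfsg.Agent.Lib.Helper17.two_le_of_card_sq hF
  intro k
  induction k with
  | zero => exact fun _ => ⟨Fin.elim0, fun i => i.elim0⟩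
  | succ k ih =>
    intro hk
    obtain ⟨v, hv⟩ := ih (by omega)
    obtain ⟨w, hww, hwv⟩ := onb_step hF hf k (by omega) v hv
    refine ⟨Fin.cons w v, ?_⟩
    intro i j
    refine Fin.cases ?_ (fun i => ?_) i <;> refine Fin.cases ?_ (fun j => ?_) j
    · simp [hww]
    · simp [hwv, (Fin.succ_ne_zero j).symm]
    · simp only [Fin.cons_succ, Fin.cons_zero]
      rw [hf.herm, hwv, zero_pow (by omega), if_neg (Fin.succ_ne_zero i)]
    · simp [hv, Fin.succ_inj]

end ONB

/-- ONB (orthonormal basis of a unitary space over F_{q²}). -/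
theorem exists_onb [Fintype F] (q : ℕ) (hF : Fintype.card F = q ^ 2) {m : ℕ} (f : (Fin m → F) → (Fin m → F) → F)
    (hf : IsUnitaryFormPow q f) :
    ∃ C : GL (Fin m) F, ∀ x y, f ((C : Matrix (Fin m) (Fin m) F) *ᵥ x) ((C : Matrix (Fin m) (Fin m) F) *ᵥ y)
      = hermForm m F q x y := by
  obtain ⟨v, hv⟩ := onb_family hF hf m le_rfl
  have hC : ∀ x : Fin m → F, (Matrix.of (fun r i => v i r) : Matrix (Fin m) (Fin m) F) *ᵥ x
      = ∑ i, x i • v i := by
    intro x
    ext r
    simp [Matrix.mulVec, dotProduct, mul_comm]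
  have hform : ∀ x y : Fin m → F, f (∑ i, x i • v i) (∑ i, y i • v i) = hermForm m F q x y := by
    intro x y
    rw [onb_sum_left hf, hermForm]
    apply Finset.sum_congr rfl
    intro i _
    rw [hf.smul_left, onb_sum_right hF hf, Finset.sum_eq_single i]
    · rw [onb_smul_right hf, hv, if_pos rfl, mul_one]
    · intro b _ hb
      rw [onb_smul_right hf, hv, if_neg hb.symm, mul_zero]
    · intro h
      exact absurd (Finset.mem_univ _) h
  have hdet : (Matrix.of (fun r i => v i r) : Matrix (Fin m) (Fin m) F).det ≠ 0 := by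
    intro h0
    obtain ⟨x, hx0, hx⟩ := Matrix.exists_mulVec_eq_zero_iff.mpr h0
    apply hx0
    ext j
    have h1 := hform x (Pi.single j 1)
    rw [← hC, hx, onb_zero_left hf, hermForm, Finset.sum_eq_single j] at h1
    · simpa using h1.symm
    · intro b _ hb
      have hq : 2 ≤ q := Cfsg.Agent.Lib.Helper17.two_le_of_card_sq hF
      rw [Pi.single_eq_of_ne hb, zero_pow (by omega), mul_zero]
    · intro h
      exact absurd (Finset.mem_univ _) h
  refine ⟨Matrix.GeneralLinearGroup.mkOfDetNeZero _ hdet, ?_⟩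
  intro x y
  change f ((Matrix.of (fun r i => v i r) : Matrix (Fin m) (Fin m) F) *ᵥ x)
    ((Matrix.of (fun r i => v i r) : Matrix (Fin m) (Fin m) F) *ᵥ y) = _
  rw [hC, hC, hform]

end Cfsg.Agent.Lib.Helper59.ASU9
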