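import Cfsg.Agent.Lib.Helper59.ASU9.Defs

set_option autoImplicit false

namespace Cfsg.Agent.Lib.Helper59.ASU9

open Cfsg Cfsg.Geo Cfsg.Agent.Lib.Helper77.Asch Cfsg.Agent.Lib.Helper77.AschG Cfsg.Agent.Lib.Helper32.AschU
  Cfsg.Agent.Lib.Helper80.AS Cfsg.Agent.Lib.Helper47.UC
open scoped MatrixGroups Matrix Kronecker

variable {n : ℕ} {F : Type*} [Field F]


open scoped commutatorElement

/-- the derived series of a subgroup, computed inside the ambient group. -/
def solvD {G : Type*} [Group G] (N : Subgroup G) : ℕ → Subgroup G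
  | 0 => N
  | (j + 1) => ⁅solvD N j, solvD N j⁆

theorem solv_map_derived {G : Type*} [Group G] (Q : Subgroup G) (j : ℕ) :
    solvD Q j = (derivedSeries Q j).map Q.subtype := by
  induction j with
  | zero =>
    rw [solvD, derivedSeries_zero, ← MonoidHom.range_eq_map, Subgroup.range_subtype]
  | succ j ih =>
    rw [solvD, ih, derivedSeries_succ, Subgroup.map_commutator]

theorem central_of_solvable {G : Type*} [Group G] (N Q P₀ : Subgroup G)
    (hfac : ∀ x ∈ N, ∃ q ∈ Q, ∃ c : G, (∀ y ∈ Q, c * y = y * c) ∧ x = q * c) (hP : P₀ ≤ N)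
    (hperf : ⁅P₀, P₀⁆ = P₀) (hsol : Group.IsSolvable Q) : ∀ x ∈ P₀, ∀ y ∈ Q, x * y = y * x := by
  -- the subgroup `D_j(Q) * C`
  have hDQ : ∀ j, solvD Q j ≤ Q := by
    intro j
    rw [solv_map_derived]
    exact Subgroup.map_subtype_le _
  let S : ℕ → Subgroup G := fun j =>
    { carrier := {x | ∃ q ∈ solvD Q j, ∃ c : G, (∀ y ∈ Q, c * y = y * c) ∧ x = q * c}
      one_mem' := ⟨1, one_mem _, 1, by simp, by simp⟩
      mul_mem' := by
        rintro _ _ ⟨q, hq, c, hc, rfl⟩ ⟨q', hq', c', hc', rfl⟩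
        refine ⟨q * q', mul_mem hq hq', c * c', ?_, ?_⟩
        · intro y hy
          rw [mul_assoc, hc' y hy, ← mul_assoc, hc y hy, mul_assoc]
        · have := hc q' (hDQ j hq')
          calc q * c * (q' * c') = q * (c * q') * c' := by group
            _ = q * (q' * c) * c' := by rw [this]
            _ = q * q' * (c * c') := by group
      inv_mem' := by
        rintro _ ⟨q, hq, c, hc, rfl⟩
        refine ⟨q⁻¹, inv_mem hq, c⁻¹, ?_, ?_⟩
        · intro y hy
          have := hc y hy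
          calc c⁻¹ * y = c⁻¹ * (y * c) * c⁻¹ := by group
            _ = c⁻¹ * (c * y) * c⁻¹ := by rw [this]
            _ = y * c⁻¹ := by group
        · have := hc q (hDQ j hq)
          calc (q * c)⁻¹ = (c * q)⁻¹ := by rw [this]
            _ = q⁻¹ * c⁻¹ := by group }
  have hS : ∀ j, P₀ ≤ S j := by
    intro j
    induction j with
    | zero =>
      intro x hx
      obtain ⟨q, hq, c, hc, rfl⟩ := hfac x (hP hx)
      exact ⟨q, hq, c, hc, rfl⟩
    | succ j ih =>
      have h1 : ⁅P₀, P₀⁆ ≤ S (j + 1) := by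
        rw [Subgroup.commutator_le]
        intro a ha b hb
        obtain ⟨q, hq, c, hc, rfl⟩ := ih ha
        obtain ⟨q', hq', c', hc', rfl⟩ := ih hb
        have e1 := hc q' (hDQ j hq')
        have e2 := hc' q (hDQ j hq)
        have e3 := hc q (hDQ j hq)
        have e4 := hc' q' (hDQ j hq')
        have e1' : c⁻¹ * q' = q' * c⁻¹ := by
          calc c⁻¹ * q' = c⁻¹ * (q' * c) * c⁻¹ := by group
            _ = c⁻¹ * (c * q') * c⁻¹ := by rw [e1]
            _ = q' * c⁻¹ := by group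
        refine ⟨⁅q, q'⁆, Subgroup.commutator_mem_commutator hq hq', ⁅c, c'⁆, ?_, ?_⟩
        · intro y hy
          have f1 := hc y hy
          have f2 := hc' y hy
          have f3 : c⁻¹ * y = y * c⁻¹ := by
            calc c⁻¹ * y = c⁻¹ * (y * c) * c⁻¹ := by group
              _ = c⁻¹ * (c * y) * c⁻¹ := by rw [f1]
              _ = y * c⁻¹ := by group
          have f4 : c'⁻¹ * y = y * c'⁻¹ := by
            calc c'⁻¹ * y = c'⁻¹ * (y * c') * c'⁻¹ := by group
              _ = c'⁻¹ * (c' * y) * c'⁻¹ := by rw [f2]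
              _ = y * c'⁻¹ := by group
          rw [commutatorElement_def]
          calc c * c' * c⁻¹ * c'⁻¹ * y = c * c' * c⁻¹ * (c'⁻¹ * y) := by group
            _ = c * c' * (c⁻¹ * y) * c'⁻¹ := by rw [f4]; group
            _ = c * (c' * y) * c⁻¹ * c'⁻¹ := by rw [f3]; group
            _ = (c * y) * c' * c⁻¹ * c'⁻¹ := by rw [f2]; group
            _ = y * (c * c' * c⁻¹ * c'⁻¹) := by rw [f1]; group
        · -- everything in sight commutes across
          have hcq : Commute c q := e3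
          have hcq' : Commute c q' := e1
          have hc'q : Commute c' q := e2
          have hc'q' : Commute c' q' := e4
          rw [commutatorElement_def, commutatorElement_def, commutatorElement_def]
          have g1 : (q * c)⁻¹ = q⁻¹ * c⁻¹ := by
            rw [mul_inv_rev]; exact (hcq.inv_inv).eq
          have g2 : (q' * c')⁻¹ = q'⁻¹ * c'⁻¹ := by
            rw [mul_inv_rev]; exact (hc'q'.inv_inv).eq
          rw [g1, g2]
          calc q * c * (q' * c') * (q⁻¹ * c⁻¹) * (q'⁻¹ * c'⁻¹)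
              = q * (c * q') * (c' * q⁻¹) * (c⁻¹ * q'⁻¹) * c'⁻¹ := by group
            _ = q * (q' * c) * (q⁻¹ * c') * (q'⁻¹ * c⁻¹) * c'⁻¹ := by
                rw [hcq'.eq, (hc'q.inv_right).eq, (hcq'.inv_inv).eq]
            _ = q * q' * (c * q⁻¹) * (c' * q'⁻¹) * c⁻¹ * c'⁻¹ := by group
            _ = q * q' * (q⁻¹ * c) * (q'⁻¹ * c') * c⁻¹ * c'⁻¹ := by
                rw [(hcq.inv_right).eq, (hc'q'.inv_right).eq]
            _ = q * q' * q⁻¹ * (c * q'⁻¹) * c' * c⁻¹ * c'⁻¹ := by group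
            _ = q * q' * q⁻¹ * (q'⁻¹ * c) * c' * c⁻¹ * c'⁻¹ := by rw [(hcq'.inv_right).eq]
            _ = q * q' * q⁻¹ * q'⁻¹ * (c * c' * c⁻¹ * c'⁻¹) := by group
      rwa [hperf] at h1
  obtain ⟨d, hd⟩ := hsol.solvable
  have hbot : solvD Q d = ⊥ := by
    rw [solv_map_derived, hd, Subgroup.map_bot]
  intro x hx y hy
  obtain ⟨q, hq, c, hc, rfl⟩ := hS d hx
  rw [hbot, Subgroup.mem_bot] at hq
  subst hq
  rw [one_mul]
  exact hc y hy

end Cfsg.Agent.Lib.Helper59.ASU9
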