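import Cfsg.Agent.Lib.Helper59.ASU9.Defs
import Cfsg.Agent.Lib.Helper32.AschU.EXU

set_option autoImplicit false

namespace Cfsg.Agent.Lib.Helper59.ASU9

open Cfsg Cfsg.Geo Cfsg.Agent.Lib.Helper77.Asch Cfsg.Agent.Lib.Helper77.AschG Cfsg.Agent.Lib.Helper32.AschU
  Cfsg.Agent.Lib.Helper80.AS Cfsg.Agent.Lib.Helper47.UC
open scoped MatrixGroups Matrix Kronecker

variable {n : ℕ} {F : Type*} [Field F]

/-- MULT (cf. Helper32/AschU/EXU.lean): multiplier argument. -/
theorem le_GU_of_exp [Fintype F] (q : ℕ) (hF : Fintype.card F = q ^ 2) (hn : 0 < n) (r : ℕ) (hr : r.Prime) (hr2 : r ≠ 2)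
    (R : Subgroup (GL (Fin n) F)) (hR : R ≤ similarityGroup (hermForm n F q)) (hexp : ∀ g ∈ R, g ^ r = 1)
    (x y : GL (Fin n) F) (hx : x ∈ similarityGroup (hermForm n F q)) (hy : y ∈ similarityGroup (hermForm n F q))
    (c : Fˣ) (hc : orderOf c = r) (hxy : x * y = sc c * (y * x)) : R ≤ GU n F q := by
  have hq2 := Cfsg.Agent.Lib.Helper17.two_le_of_card_sq hF
  obtain ⟨cx, hcx⟩ := hx
  obtain ⟨cy, hcy⟩ := hy
  have hx' : exuMu q x (cx : F) := hcx
  have hy' : exuMu q y (cy : F) := hcy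
  have hw : (c : F) ^ (q + 1) = 1 := by
    have h1 : exuMu q (x * y) ((cx : F) * cy) := exuMu_mul hx' hy'
    have h3 : exuMu q (sc c * (y * x)) ((c : F) ^ (q + 1) * ((cy : F) * cx)) :=
      exuMu_mul (exuMu_sc q c) (exuMu_mul hy' hx')
    rw [← hxy] at h3
    have h4 := exuMu_uniq hn h1 h3
    have h5 : ((cy : F) * cx) ≠ 0 := mul_ne_zero cy.ne_zero cx.ne_zero
    have h6 : (1 : F) * ((cy : F) * cx) = (c : F) ^ (q + 1) * ((cy : F) * cx) := by
      rw [one_mul, ← h4, mul_comm]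
    exact (mul_right_cancel₀ h5 h6).symm
  have hdvd : r ∣ q + 1 := by
    rw [← hc]
    apply orderOf_dvd_of_pow_eq_one
    apply Units.ext
    rw [Units.val_pow_eq_pow_val, hw, Units.val_one]
  have hcop : Nat.Coprime r (q - 1) := by
    rw [Nat.Prime.coprime_iff_not_dvd hr]
    intro hd
    have h3 : r ∣ (q + 1) - (q - 1) := Nat.dvd_sub hdvd hd
    have h4 : (q + 1) - (q - 1) = 2 := by omega
    rw [h4] at h3
    exact hr2 ((Nat.prime_dvd_prime_iff_eq hr Nat.prime_two).1 h3)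
  intro g hg
  obtain ⟨d, hd⟩ := hR hg
  have hg' : exuMu q g (d : F) := hd
  have h1 : (d : F) ^ r = 1 := by
    have := exuMu_pow hg' r
    rw [hexp g hg] at this
    exact exuMu_uniq hn this (exuMu_one q)
  have h3 : (d : F) ^ (q - 1) = 1 := by
    have h4 := exuMu_fix hF hn hg'
    have h5 : (d : F) ^ (q - 1) * d = 1 * d := by
      rw [← pow_succ, one_mul, show q - 1 + 1 = q by omega, h4]
    exact mul_right_cancel₀ d.ne_zero h5
  have h6 : orderOf (d : F) ∣ r := orderOf_dvd_of_pow_eq_one h1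
  have h7 : orderOf (d : F) ∣ q - 1 := orderOf_dvd_of_pow_eq_one h3
  have h8 : orderOf (d : F) = 1 := Nat.eq_one_of_dvd_coprimes hcop h6 h7
  have h9 : (d : F) = 1 := orderOf_eq_one_iff.1 h8
  rw [Cfsg.Agent.Lib.Helper17.mem_GU_iff]
  intro u v
  rw [hg' u v, h9, one_mul]

end Cfsg.Agent.Lib.Helper59.ASU9
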