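import Cfsg.Agent.Lib.Helper59.ASU9.Defs
import Cfsg.Agent.Lib.Helper17.TensorForm
import Cfsg.Agent.Lib.Helper17.Herm

/-! Ladder ASU9, rung T2WF (helper62). -/

set_option autoImplicit false

namespace Cfsg.Agent.Lib.Helper59.ASU9

open Cfsg Cfsg.Geo Cfsg.Agent.Lib.Helper77.Asch Cfsg.Agent.Lib.Helper77.AschG Cfsg.Agent.Lib.Helper32.AschU
  Cfsg.Agent.Lib.Helper80.AS Cfsg.Agent.Lib.Helper47.UC
open scoped MatrixGroups Matrix Kronecker

variable {n : ℕ} {F : Type*} [Field F]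

theorem t2wf_gram [Fintype F] (q : ℕ) (hF : Fintype.card F = q ^ 2) {m : ℕ}
    (f : (Fin m → F) → (Fin m → F) → F) (h : IsUnitaryFormPow q f) (x y : Fin m → F) :
    formOfGram (fun x : F => x ^ q) (gramMatrix f) x y = f x y := by
  refine Cfsg.Agent.Lib.Helper17.TensorForm.formOfGram_gram _ f h.add_left h.smul_left ?_ ?_ x y
  · intro v x y
    rw [h.herm v (x + y), h.add_left, Cfsg.Agent.Lib.Helper17.add_pow_q hF, ← h.herm, ← h.herm]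
  · intro c v x
    rw [h.herm v (c • x), h.smul_left, mul_pow, ← h.herm]

theorem t2wf_single (a b : Fin 3) : (Pi.single (a, b) 1 : Fin 3 × Fin 3 → F) =
    Cfsg.Agent.Lib.Helper17.TensorForm.tp (Pi.single a 1) (Pi.single b 1) := by
  ext ⟨i, j⟩
  simp only [Cfsg.Agent.Lib.Helper17.TensorForm.tp, Pi.single_apply, Prod.mk.injEq]
  by_cases h1 : i = a <;> by_cases h2 : j = b <;> simp [h1, h2]

theorem power_form_of_tensor [Fintype F] (q : ℕ) (hF : Fintype.card F = q ^ 2) (e : Fin n ≃ Fin 3 × Fin 3)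
    (P P' : GL (Fin n) F) (f₁ f₂ : (Fin 3 → F) → (Fin 3 → F) → F) (h1 : IsUnitaryFormPow q f₁) (h2 : IsUnitaryFormPow q f₂)
    (hT : IsTensorFormStructure (fun x : F => x ^ q) (hermForm n F q) f₁ f₂ e P) (C₁ C₂ : GL (Fin 3) F)
    (hC₁ : ∀ x y, f₁ ((C₁ : Matrix (Fin 3) (Fin 3) F) *ᵥ x) ((C₁ : Matrix (Fin 3) (Fin 3) F) *ᵥ y) = hermForm 3 F q x y)
    (hC₂ : ∀ x y, f₂ ((C₂ : Matrix (Fin 3) (Fin 3) F) *ᵥ x) ((C₂ : Matrix (Fin 3) (Fin 3) F) *ᵥ y) = hermForm 3 F q x y)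
    (hP' : ∀ x : Fin 3 × Fin 3 → F, (P' : Matrix (Fin n) (Fin n) F) *ᵥ (x ∘ e) = (P : Matrix (Fin n) (Fin n) F) *ᵥ
        ((((C₁ : Matrix (Fin 3) (Fin 3) F) ⊗ₖ (C₂ : Matrix (Fin 3) (Fin 3) F)) *ᵥ x) ∘ e)) :
    IsTensorPowerFormStructure (fun x : F => x ^ q) (hermForm n F q) (hermForm 3 F q) (eW e) P' := by
  obtain ⟨c, hc, h⟩ := hT
  refine ⟨c, hc, fun x y => ?_⟩
  set Ψ : (Fin 3 × Fin 3 → F) → (Fin 3 × Fin 3 → F) → F := fun x' y' =>
    hermForm n F q ((P' : Matrix (Fin n) (Fin n) F) *ᵥ (x' ∘ e)) ((P' : Matrix (Fin n) (Fin n) F) *ᵥ (y' ∘ e)) with hΨ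
  have hg : ∀ p p', gramMatrix Ψ p p' =
      c * (gramMatrix (hermForm 3 F q) p.1 p'.1 * gramMatrix (hermForm 3 F q) p.2 p'.2) := by
    rintro ⟨a, b⟩ ⟨a', b'⟩
    change hermForm n F q ((P' : Matrix (Fin n) (Fin n) F) *ᵥ ((Pi.single (a, b) 1 : Fin 3 × Fin 3 → F) ∘ e))
      ((P' : Matrix (Fin n) (Fin n) F) *ᵥ ((Pi.single (a', b') 1 : Fin 3 × Fin 3 → F) ∘ e)) = _
    rw [hP', hP', h, t2wf_single, t2wf_single, Cfsg.Agent.Lib.Helper17.TensorForm.kron_mulVec_tp,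
      Cfsg.Agent.Lib.Helper17.TensorForm.kron_mulVec_tp,
      Cfsg.Agent.Lib.Helper17.TensorForm.formOfGram_tp _ (fun a b => mul_pow a b q),
      t2wf_gram q hF f₁ h1, t2wf_gram q hF f₂ h2, hC₁, hC₂]
    rfl
  have hs := Cfsg.Agent.Lib.Helper17.TensorForm.formOfGram_gram (fun x : F => x ^ q) Ψ
    (fun x y v => by
      change hermForm n F q ((P' : Matrix (Fin n) (Fin n) F) *ᵥ (x ∘ e + y ∘ e)) _ = _
      rw [Matrix.mulVec_add, Cfsg.Agent.Lib.Helper17.hermForm_add_left])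
    (fun a x v => by
      change hermForm n F q ((P' : Matrix (Fin n) (Fin n) F) *ᵥ (a • (x ∘ e))) _ = _
      rw [Matrix.mulVec_smul, Cfsg.Agent.Lib.Helper17.hermForm_smul_left])
    (fun v x y => by
      change hermForm n F q _ ((P' : Matrix (Fin n) (Fin n) F) *ᵥ (x ∘ e + y ∘ e)) = _
      rw [Matrix.mulVec_add, Cfsg.Agent.Lib.Helper17.hermForm_add_right hF])
    (fun a v x => by
      change hermForm n F q _ ((P' : Matrix (Fin n) (Fin n) F) *ᵥ (a • (x ∘ e))) = _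
      rw [Matrix.mulVec_smul, Cfsg.Agent.Lib.Helper17.hermForm_smul_right])
    (x ∘ (finTwoArrowEquiv (Fin 3)).symm) (y ∘ (finTwoArrowEquiv (Fin 3)).symm)
  change Ψ (x ∘ (finTwoArrowEquiv (Fin 3)).symm) (y ∘ (finTwoArrowEquiv (Fin 3)).symm) = _
  rw [← hs]
  unfold formOfGram
  rw [← Equiv.sum_comp (finTwoArrowEquiv (Fin 3)).symm, Finset.mul_sum]
  refine Finset.sum_congr rfl fun p _ => ?_
  rw [← Equiv.sum_comp (finTwoArrowEquiv (Fin 3)).symm, Finset.mul_sum]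
  refine Finset.sum_congr rfl fun p' _ => ?_
  rw [hg, Fin.prod_univ_two]
  obtain ⟨a, b⟩ := p
  obtain ⟨a', b'⟩ := p'
  simp [finTwoArrowEquiv]
  ring

end Cfsg.Agent.Lib.Helper59.ASU9
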