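import Cfsg.Agent.Lib.Helper59.ASU9.Defs
import Cfsg.Agent.Lib.Helper32.AschU.GRAM
import Cfsg.Agent.Lib.Helper77.AschG.GRAM
import Cfsg.Agent.Lib.Helper77.Asch.ODD

set_option autoImplicit false

namespace Cfsg.Agent.Lib.Helper59.ASU9

open Cfsg Cfsg.Geo Cfsg.Agent.Lib.Helper77.Asch Cfsg.Agent.Lib.Helper77.AschG Cfsg.Agent.Lib.Helper32.AschU
  Cfsg.Agent.Lib.Helper80.AS Cfsg.Agent.Lib.Helper47.UC
open scoped MatrixGroups Matrix Kronecker

variable {n : ℕ} {F : Type*} [Field F]

/-- NOALT -/
theorem no_alt_odd [Fintype F] (q : ℕ) (hF : Fintype.card F = q ^ 2) (hodd : Odd n) (F₀ : Subfield F) (P : GL (Fin n) F)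
    (ζ : F) (hζ : ζ ≠ 0)
    (hdiag : ∀ u : Fin n → F, (∀ i, u i ∈ F₀) →
      hermForm n F q ((P : Matrix (Fin n) (Fin n) F) *ᵥ u) ((P : Matrix (Fin n) (Fin n) F) *ᵥ u) = 0) : False := by
  classical
  have hq0 : q ≠ 0 := by
    rintro rfl
    rw [zero_pow two_ne_zero] at hF
    exact Fintype.card_ne_zero hF
  set G := gram q P with hG
  have hsm : ∀ i k : Fin n, (Pi.single i (1 : F) : Fin n → F) k ∈ F₀ := by
    intro i k
    rw [Pi.single_apply]
    split_ifs
    · exact one_mem _
    · exact zero_mem _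
  have hd : ∀ i, G i i = 0 := by
    intro i
    rw [hG, gram_entry q hF]
    exact hdiag _ (hsm i)
  have key : ∀ i j, i ≠ j → G i j + G j i = 0 := by
    intro i j hij
    have h := hdiag (Pi.single i 1 + Pi.single j 1) (fun k => add_mem (hsm i k) (hsm j k))
    rw [gram_apply q hF] at h
    have hv : (fun k => (Pi.single i 1 + Pi.single j 1 : Fin n → F) k ^ q) = Pi.single i 1 + Pi.single j 1 := by
      funext k
      simp only [Pi.add_apply, Pi.single_apply]
      split_ifs with h1 h2 h2
      · exact absurd (h1.symm.trans h2) hij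
      · simp
      · simp
      · simp [hq0]
    rw [hv, Matrix.mulVec_add, dotProduct_add, add_dotProduct, add_dotProduct, Matrix.mulVec_single_one,
      Matrix.mulVec_single_one, single_one_dotProduct, single_one_dotProduct, single_one_dotProduct,
      single_one_dotProduct] at h
    simp only [Matrix.col_apply] at h
    rw [← hG, hd i, hd j] at h
    rw [← h]
    ring
  have hs : Gᵀ = -G := by
    ext i j
    rw [Matrix.transpose_apply, Matrix.neg_apply]
    by_cases hij : i = j
    · subst hij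
      rw [hd i, neg_zero]
    · exact eq_neg_of_add_eq_zero_right (key i j hij)
  have hU : IsUnit G := gram_isUnit q hF P
  refine no_symplectic_odd hodd (gramF G) ⟨gram_bilin G, ?_, gram_alt G hs hd, gram_nondeg G hU⟩
  intro v w
  rw [gram_swap, hs]
  simp only [gramF, Matrix.neg_mulVec, dotProduct_neg]

end Cfsg.Agent.Lib.Helper59.ASU9
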