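import Cfsg.Agent.Lib.Helper59.ASU9.Defs
import Cfsg.Agent.Lib.Helper77.AschG.PT

/-! Ladder ASU9, rung T2WG (helper62). -/

set_option autoImplicit false

namespace Cfsg.Agent.Lib.Helper59.ASU9

open Cfsg Cfsg.Geo Cfsg.Agent.Lib.Helper77.Asch Cfsg.Agent.Lib.Helper77.AschG Cfsg.Agent.Lib.Helper32.AschU
  Cfsg.Agent.Lib.Helper80.AS Cfsg.Agent.Lib.Helper47.UC
open scoped MatrixGroups Matrix Kronecker

variable {n : ℕ} {F : Type*} [Field F]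

theorem t2wg_map_conj {G : Type*} [Group G] (K : Subgroup G) (P k : G) (hk : k ∈ K) :
    K.map (MulAut.conj (P * k)).toMonoidHom = K.map (MulAut.conj P).toMonoidHom := by
  ext g
  constructor
  · rintro ⟨x, hx, rfl⟩
    refine ⟨k * x * k⁻¹, K.mul_mem (K.mul_mem hk hx) (K.inv_mem hk), ?_⟩
    simp [MulAut.conj_apply, mul_assoc]
  · rintro ⟨x, hx, rfl⟩
    refine ⟨k⁻¹ * x * k, K.mul_mem (K.mul_mem (K.inv_mem hk) hx) hk, ?_⟩
    simp [MulAut.conj_apply, mul_assoc]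

/-- the unit with matrix `C₁ ⊗ₖ C₂`. -/
def t2wgK (C₁ C₂ : GL (Fin 3) F) : GL (Fin 3 × Fin 3) F where
  val := (C₁ : Matrix (Fin 3) (Fin 3) F) ⊗ₖ (C₂ : Matrix (Fin 3) (Fin 3) F)
  inv := ((C₁⁻¹ : GL (Fin 3) F) : Matrix (Fin 3) (Fin 3) F) ⊗ₖ ((C₂⁻¹ : GL (Fin 3) F) : Matrix (Fin 3) (Fin 3) F)
  val_inv := by
    rw [← Matrix.mul_kronecker_mul, ← Units.val_mul, ← Units.val_mul, mul_inv_cancel, mul_inv_cancel,
      Units.val_one, Matrix.one_kronecker_one]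
  inv_val := by
    rw [← Matrix.mul_kronecker_mul, ← Units.val_mul, ← Units.val_mul, inv_mul_cancel, inv_mul_cancel,
      Units.val_one, Matrix.one_kronecker_one]

theorem t2wg_pt (C₁ C₂ : GL (Fin 3) F) :
    ((glReindex (finTwoArrowEquiv (Fin 3)).symm (t2wgK C₁ C₂) : GL (Fin 2 → Fin 3) F) :
      Matrix (Fin 2 → Fin 3) (Fin 2 → Fin 3) F)
      = pt ![(C₁ : Matrix (Fin 3) (Fin 3) F), (C₂ : Matrix (Fin 3) (Fin 3) F)] := by
  ext u v
  rw [pt_apply, Fin.prod_univ_two]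
  change ((C₁ : Matrix (Fin 3) (Fin 3) F) ⊗ₖ (C₂ : Matrix (Fin 3) (Fin 3) F)) (finTwoArrowEquiv (Fin 3) u)
      (finTwoArrowEquiv (Fin 3) v) = _
  simp [Matrix.kroneckerMap_apply, finTwoArrowEquiv]

theorem t2wg_pt_inv (C₁ C₂ : GL (Fin 3) F) :
    (((glReindex (finTwoArrowEquiv (Fin 3)).symm (t2wgK C₁ C₂))⁻¹ : GL (Fin 2 → Fin 3) F) :
      Matrix (Fin 2 → Fin 3) (Fin 2 → Fin 3) F)
      = pt ![((C₁⁻¹ : GL (Fin 3) F) : Matrix (Fin 3) (Fin 3) F), ((C₂⁻¹ : GL (Fin 3) F) : Matrix (Fin 3) (Fin 3) F)] := by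
  ext u v
  rw [pt_apply, Fin.prod_univ_two]
  change (((C₁⁻¹ : GL (Fin 3) F) : Matrix (Fin 3) (Fin 3) F) ⊗ₖ ((C₂⁻¹ : GL (Fin 3) F) : Matrix (Fin 3) (Fin 3) F))
      (finTwoArrowEquiv (Fin 3) u) (finTwoArrowEquiv (Fin 3) v) = _
  simp [Matrix.kroneckerMap_apply, finTwoArrowEquiv]

theorem t2wg_reindex (e : Fin n ≃ Fin 3 × Fin 3) (k : GL (Fin 3 × Fin 3) F) :
    glReindex e.symm k = glReindex (eW e).symm (glReindex (finTwoArrowEquiv (Fin 3)).symm k) := by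
  apply Units.ext
  ext a b
  rfl

theorem exists_changeP (e : Fin n ≃ Fin 3 × Fin 3) (P : GL (Fin n) F) (C₁ C₂ : GL (Fin 3) F) :
    ∃ P' : GL (Fin n) F,
      (∀ x : Fin 3 × Fin 3 → F, (P' : Matrix (Fin n) (Fin n) F) *ᵥ (x ∘ e) = (P : Matrix (Fin n) (Fin n) F) *ᵥ
        ((((C₁ : Matrix (Fin 3) (Fin 3) F) ⊗ₖ (C₂ : Matrix (Fin 3) (Fin 3) F)) *ᵥ x) ∘ e)) ∧
      tensorWreathSubgroup 3 2 (eW e) P' = tensorWreathSubgroup 3 2 (eW e) P ∧
      tensorProductSubgroup 3 3 e P' = tensorProductSubgroup 3 3 e P ∧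
      ∀ (i : Fin 2) (x : Matrix (Fin 3) (Fin 3) F), ∃ y, tw (eW e) P (slot i x) = tw (eW e) P' (slot i y) := by
  refine ⟨P * glReindex e.symm (t2wgK C₁ C₂), ?_, ?_, ?_, ?_⟩
  · intro x
    rw [Units.val_mul, ← Matrix.mulVec_mulVec]
    congr 1
    change ((C₁ : Matrix (Fin 3) (Fin 3) F) ⊗ₖ (C₂ : Matrix (Fin 3) (Fin 3) F)).submatrix e e *ᵥ (x ∘ e) = _
    rw [Matrix.submatrix_mulVec_equiv]
    simp [Function.comp_assoc]
  · unfold tensorWreathSubgroup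
    apply t2wg_map_conj
    rw [t2wg_reindex]
    refine ⟨_, ?_, rfl⟩
    apply Subgroup.subset_closure
    left
    refine ⟨![C₁, C₂], fun u v => ?_⟩
    rw [t2wg_pt, pt_apply, Fin.prod_univ_two, Fin.prod_univ_two]
    rfl
  · unfold tensorProductSubgroup
    apply t2wg_map_conj
    exact ⟨_, ⟨C₁, C₂, rfl⟩, rfl⟩
  · intro i x
    have h : ∀ j, (![(C₁ : Matrix (Fin 3) (Fin 3) F), (C₂ : Matrix (Fin 3) (Fin 3) F)]) j *
        (![((C₁⁻¹ : GL (Fin 3) F) : Matrix (Fin 3) (Fin 3) F), ((C₂⁻¹ : GL (Fin 3) F) : Matrix (Fin 3) (Fin 3) F)]) j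
          = 1 := by
      intro j
      fin_cases j
      · change (C₁ : Matrix (Fin 3) (Fin 3) F) * ((C₁⁻¹ : GL (Fin 3) F) : Matrix (Fin 3) (Fin 3) F) = 1
        rw [← Units.val_mul, mul_inv_cancel, Units.val_one]
      · change (C₂ : Matrix (Fin 3) (Fin 3) F) * ((C₂⁻¹ : GL (Fin 3) F) : Matrix (Fin 3) (Fin 3) F) = 1
        rw [← Units.val_mul, mul_inv_cancel, Units.val_one]
    generalize hCs : (![(C₁ : Matrix (Fin 3) (Fin 3) F), (C₂ : Matrix (Fin 3) (Fin 3) F)]) = Cs at h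
    generalize hCs' : (![((C₁⁻¹ : GL (Fin 3) F) : Matrix (Fin 3) (Fin 3) F),
      ((C₂⁻¹ : GL (Fin 3) F) : Matrix (Fin 3) (Fin 3) F)]) = Cs' at h
    refine ⟨Cs' i * x * Cs i, ?_⟩
    have h1 := pt_conj_slot Cs Cs' h i (Cs' i * x * Cs i)
    have h2 : Cs i * (Cs' i * x * Cs i) * Cs' i = x := by
      rw [mul_assoc, mul_assoc, h i, mul_one, ← mul_assoc, h i, one_mul]
    rw [h2] at h1
    rw [← h1]
    unfold tw
    rw [t2wg_reindex, mul_inv_rev, Units.val_mul, Units.val_mul]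
    have h3 : ((glReindex (eW e).symm (glReindex (finTwoArrowEquiv (Fin 3)).symm (t2wgK C₁ C₂)) : GL (Fin n) F) :
        Matrix (Fin n) (Fin n) F) = Matrix.reindex (eW e).symm (eW e).symm (pt Cs) := by
      rw [← hCs, ← t2wg_pt]
      rfl
    have h4 : (((glReindex (eW e).symm (glReindex (finTwoArrowEquiv (Fin 3)).symm (t2wgK C₁ C₂)))⁻¹ : GL (Fin n) F) :
        Matrix (Fin n) (Fin n) F) = Matrix.reindex (eW e).symm (eW e).symm (pt Cs') := by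
      rw [← hCs', ← t2wg_pt_inv, ← map_inv]
      rfl
    rw [h3, h4]
    simp only [Matrix.reindex_apply, ← Matrix.submatrix_mul_equiv _ _ _ (eW e).symm.symm, mul_assoc]

end Cfsg.Agent.Lib.Helper59.ASU9
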