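import Mathlib

set_option autoImplicit false

namespace Cfsg.Agent.Lib.Helper59.ASU9

theorem ar3 (p k : ℕ) (hp : p.Prime) (hk : 0 < k) (h : orderOf (p : ZMod 3) = 2 * k) : k = 1 ∧ p % 3 = 2 := by
  have hval : ∀ a : ZMod 3, a = 0 ∨ a = 1 ∨ a = 2 := by decide
  rcases hval (p : ZMod 3) with h0 | h1 | h2
  · rw [h0, orderOf_zero] at h
    omega
  · rw [h1, orderOf_one] at h
    omega
  · have h3 : orderOf (2 : ZMod 3) = 2 := by
      have : Fact (Nat.Prime 2) := ⟨Nat.prime_two⟩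
      exact orderOf_eq_prime (by decide) (by decide)
    rw [h2, h3] at h
    refine ⟨by omega, ?_⟩
    have h4 : (p : ZMod 3) = ((2 : ℕ) : ZMod 3) := by rw [h2]; rfl
    have := (ZMod.natCast_eq_natCast_iff' p 2 3).1 h4
    simpa using this

end Cfsg.Agent.Lib.Helper59.ASU9
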