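import Cfsg.Agent.Lib.Helper59.ASU9.MULT
import Cfsg.Agent.Lib.Helper59.ASU9.AR3
import Cfsg.Agent.Lib.Helper77.AschG.CaseA
import Cfsg.Agent.Lib.Helper32.AschU.Final

/-! Ladder ASU9 (S5832): the C6 block for SU_9(q). -/

set_option autoImplicit false

namespace Cfsg.Agent.Lib.Helper59.ASU9

open Cfsg Cfsg.Geo Cfsg.Agent.Lib.Helper77.Asch Cfsg.Agent.Lib.Helper77.AschG Cfsg.Agent.Lib.Helper32.AschU
open scoped MatrixGroups Matrix Kronecker

variable {F : Type*} [Field F]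

/-- an absolutely irreducible subgroup of `GU_9`, normalised by `H`, realisable over a proper subfield. -/
theorem geo9_of_realisable [Fintype F] (q : ℕ) (hF : Fintype.card F = q ^ 2)
    (H P₀ : Subgroup (GL (Fin 9) F)) (hP : ActsAbsolutelyIrreducibly (matrixSet P₀)) (hPU : P₀ ≤ GU 9 F q)
    (hHP : H ≤ subgroupNormalizer P₀) (F₁ : Subfield F) (r : ℕ) (hr : r.Prime)
    (hc : Fintype.card F = Nat.card F₁ ^ r) (B : GL (Fin 9) F)
    (hB : ∀ s ∈ matrixSet P₀, ∀ i j,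
      ((B : Matrix (Fin 9) (Fin 9) F) * s * ((B⁻¹ : GL (Fin 9) F) : Matrix (Fin 9) (Fin 9) F)) i j ∈ F₁) :
    InGeo9 q H := by
  have hn0 : 0 < 9 := by norm_num
  have hodd : Odd 9 := by decide
  have hsub : H ≤ subfieldSubgroup F₁ B⁻¹ := hHP.trans (normalizer_le_subfield hn0 P₀ hP F₁ B hB)
  rcases hr.eq_two_or_odd' with rfl | hro
  · obtain ⟨hsym, hrat⟩ := fr2a q hF hodd P₀ hP hPU F₁ hc B hB
    have hq : Odd q := by
      by_contra hq
      obtain ⟨f, hf⟩ := fr2b q hF (by norm_num) P₀ hP hPU F₁ hc B hB hsym hq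
      exact no_symplectic_odd hodd f hf
    exact Or.inr (Or.inr (Or.inr (Or.inr (Or.inr (Or.inl ⟨hq, F₁, B⁻¹, hc, hrat, hsub⟩)))))
  · obtain ⟨d, hd, hdJ⟩ := fro1 q hF hn0 P₀ hP hPU F₁ B hB
    obtain ⟨P, hrat, hPeq⟩ := fro2 q hF hn0 F₁ r hro hc B⁻¹ d hd hdJ
    exact Or.inr (Or.inr (Or.inr (Or.inr (Or.inl ⟨F₁, r, P, hr, hro, hc, hrat, hPeq ▸ hsub⟩))))

theorem caseA_U [Fintype F] (q : ℕ) (hF : Fintype.card F = q ^ 2) (H N : Subgroup (GL (Fin 9) F))
    (hHs : H ≤ similarityGroup (hermForm 9 F q))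
    (hm : MinOver H (scalars (Fin 9) F) N) (hab : ⁅N, N⁆ ≤ scalars (Fin 9) F)
    (hN : ActsAbsolutelyIrreducibly (matrixSet N)) : InGeo9 q H := by
  classical
  have hn : 0 < 9 := by norm_num
  have h2n : 2 ≤ 9 := by norm_num
  have hZc : ∀ z ∈ scalars (Fin 9) F, ∀ g : GL (Fin 9) F, g * z = z * g :=
    fun z hz g => Cfsg.Agent.Lib.Helper77.Asch.scalars_central z hz g
  obtain ⟨r, hr, hexp⟩ := exists_prime_exp H (scalars (Fin 9) F) N hZc hm hab
  obtain ⟨x, hx, y, hy, c, hc1, hxy⟩ := exists_noncomm h2n N hab hN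
  have hcr : c ^ r = 1 := pair_pow hn r x y c hxy (hexp x hx)
  have hcord : orderOf c = r := by
    have := Fact.mk hr
    exact orderOf_eq_prime hcr hc1
  obtain ⟨m, hm1, hnm⟩ := dim_prime_pow h2n r hr N hm.lt.le hab hN hexp
  have hr3 : r = 3 := by
    have h1 : r ∣ 3 ^ 2 := by
      have : r ∣ 9 := by rw [hnm]; exact dvd_pow_self r (by omega)
      simpa using this
    exact (Nat.prime_dvd_prime_iff_eq hr Nat.prime_three).1 (hr.dvd_of_dvd_pow h1)
  subst hr3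
  have hm2 : m = 2 := by
    have h1 : (3 : ℕ) ^ 2 = 3 ^ m := by rw [← hnm]; norm_num
    exact (Nat.pow_right_injective (by norm_num) h1).symm
  subst hm2
  obtain ⟨R, hsup, hnorm, hmem⟩ := exists_expSub_odd h2n 3 hr (by norm_num) H N hm hab hN hexp
  have hRabs : ActsAbsolutelyIrreducibly (matrixSet R) := absIrr_of_sup R (by rw [hsup]; exact hN)
  have hRN : R ≤ N := hsup ▸ le_sup_left
  have hRab : ⁅R, R⁆ ≤ scalars (Fin 9) F := (Subgroup.commutator_mono hRN hRN).trans hab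
  have hle : H ≤ subgroupNormalizer R := le_normalizer_of_normBy hnorm
  have hRexp : ∀ g ∈ R, g ^ 3 = 1 := fun g hg => ((hmem g).1 hg).2
  have hNs : N ≤ similarityGroup (hermForm 9 F q) := hm.le.trans hHs
  have hRs : R ≤ similarityGroup (hermForm 9 F q) := hRN.trans hNs
  have hRU : R ≤ GU 9 F q :=
    le_GU_of_exp q hF hn 3 hr (by norm_num) R hRs hRexp x y (hNs hx) (hNs hy) c hcord hxy
  obtain ⟨b, hb⟩ := exists_monomial_basis hn R hRab hRabs.1 3 hr.pos c hcord hRexp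
  by_cases hmin : ∀ F₀ : Subfield F, (c : F) ∈ F₀ → F₀ = ⊤
  · obtain ⟨p, k, hp, hchar, hk, hqk, hord⟩ := fmin (n := 3) q hF hr c hcord hmin
    obtain ⟨hk1, hp3⟩ := ar3 p k hp hk hord
    subst hk1
    have hcc : Nat.card (Subgroup.center R) = 3 :=
      card_center hn N R 3 hr.pos hmem hm.lt.le hRabs c hcord
    have hcR : Nat.card R = 243 := by
      rw [card_expSub hn N R hsup hab hN, hcc]; norm_num
    have hwR : (sc c : GL (Fin 9) F) ∈ R := by
      rw [hmem]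
      refine ⟨hm.lt.le (ex1_sc_mem c), ?_⟩
      rw [ex1_sc_pow, hcr, ex1_sc_one]
    refine Or.inr (Or.inr (Or.inr (Or.inr (Or.inr (Or.inr (Or.inl ⟨p, R, hp, by simpa using hqk, hp3,
      ⟨hr, casea_pgroup R 3 1 (by simpa using hRexp),
        fun A hA hc => char_abelian_cyclic hn H N R hm hN hsup hnorm A hA hc,
        by rw [exponent_expSub hn R 3 hRexp c hcord hwR]; norm_num⟩,
      hRabs, hRs, hcR, hcc, hRab, hle⟩))))))
  · push Not at hmin
    obtain ⟨F₀, hwF, hF₀⟩ := hmin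
    have h0 : ∀ d : F, d ^ 3 = 1 → d ∈ F₀ := by
      intro d hd
      obtain ⟨k, rfl⟩ := eq_pow_of_root 3 hr.pos c hcord d hd
      exact pow_mem hwF k
    obtain ⟨B, hB⟩ := realisable_of_monomial R 3 b hb F₀ h0
    obtain ⟨F₁, r', hle1, hr', hcard⟩ := exists_prime_subfield F₀ hF₀
    exact geo9_of_realisable q hF H R hRabs hRU hle F₁ r' hr' hcard B
      (fun s hs i j => hle1 (hB s hs i j))

end Cfsg.Agent.Lib.Helper59.ASU9
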