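import Cfsg.Agent.Lib.Helper59.ASU9.Defs
import Cfsg.Agent.Lib.Helper47.UC.MainB

set_option autoImplicit false

namespace Cfsg.Agent.Lib.Helper59.ASU9

open Cfsg Cfsg.Geo Cfsg.Agent.Lib.Helper77.Asch Cfsg.Agent.Lib.Helper77.AschG Cfsg.Agent.Lib.Helper32.AschU
  Cfsg.Agent.Lib.Helper80.AS Cfsg.Agent.Lib.Helper47.UC
open scoped MatrixGroups Matrix Kronecker

variable {n : ℕ} {F : Type*} [Field F]

/-- LFT = helper47's `tensor_form_U` (UC/MainB.lean). -/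
theorem tensor_form_of_leftFactor [Fintype F] (q : ℕ) (hF : Fintype.card F = q ^ 2) {s k : ℕ} (hs : 0 < s) (hk : 0 < k)
    (B : Subalgebra F (Matrix (Fin n) (Fin n) F)) (e : Fin n ≃ Fin s × Fin k) (P : GL (Fin n) F)
    (hB : IsLeftFactor B e P) (hadj : IsAdjointClosedFor (hermForm n F q) B) :
    ∃ (f₁ : (Fin s → F) → (Fin s → F) → F) (f₂ : (Fin k → F) → (Fin k → F) → F), IsUnitaryFormPow q f₁ ∧
      IsUnitaryFormPow q f₂ ∧ IsTensorFormStructure (fun x : F => x ^ q) (hermForm n F q) f₁ f₂ e P :=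
  tensor_form_U q hF hs hk B e P hB hadj

end Cfsg.Agent.Lib.Helper59.ASU9
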