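import Cfsg.Agent.Lib.Helper59.ASU9.Defs
import Cfsg.Agent.Lib.Helper77.AschG.PT

/-! Ladder ASU9, rung SLK: the first slot of a tensor square is the left factor of the tensor product. -/

set_option autoImplicit false

namespace Cfsg.Agent.Lib.Helper59.ASU9

open Cfsg Cfsg.Geo Cfsg.Agent.Lib.Helper77.Asch Cfsg.Agent.Lib.Helper77.AschG Cfsg.Agent.Lib.Helper32.AschU
  Cfsg.Agent.Lib.Helper80.AS Cfsg.Agent.Lib.Helper47.UC
open scoped MatrixGroups Matrix Kronecker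

variable {n : ℕ} {F : Type*} [Field F]

theorem slk_tw (e' : Fin n ≃ (Fin 2 → Fin 3)) (P : GL (Fin n) F) (x : Matrix (Fin 3) (Fin 3) F) :
    tw e' P (slot 0 x) =
      tmat (e'.trans (finTwoArrowEquiv (Fin 3))) P (x ⊗ₖ (1 : Matrix (Fin 3) (Fin 3) F)) := by
  unfold tw tmat
  congr 2
  ext i j
  show slot 0 x (e' i) (e' j) = x (e' i 0) (e' j 0) * (1 : Matrix (Fin 3) (Fin 3) F) (e' i 1) (e' j 1)
  rw [slot_apply, Matrix.one_apply]
  by_cases h : e' i 1 = e' j 1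
  · rw [if_pos h, mul_one, if_pos]
    intro k hk
    fin_cases k
    · exact absurd rfl hk
    · exact h
  · rw [if_neg h, mul_zero, if_neg]
    intro hall
    exact h (hall 1 (by decide))

theorem leftFactor_of_slot (e' : Fin n ≃ (Fin 2 → Fin 3)) (P : GL (Fin n) F)
    (B : Subalgebra F (Matrix (Fin n) (Fin n) F))
    (hB : ∀ y, y ∈ B ↔ ∃ x : Matrix (Fin 3) (Fin 3) F, y = tw e' P (slot 0 x)) :
    IsLeftFactor B (e'.trans (finTwoArrowEquiv (Fin 3))) P := by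
  intro y
  rw [hB y]
  constructor
  · rintro ⟨x, rfl⟩
    exact ⟨x, slk_tw e' P x⟩
  · rintro ⟨x, rfl⟩
    exact ⟨x, (slk_tw e' P x).symm⟩

end Cfsg.Agent.Lib.Helper59.ASU9
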