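import Cfsg.Agent.Lib.Helper59.ASU9.ONB
import Cfsg.Agent.Lib.Helper59.ASU9.T2WG
import Cfsg.Agent.Lib.Helper59.ASU9.T2WF
import Cfsg.Agent.Lib.Helper59.ASU9.SLK
import Cfsg.Agent.Lib.Helper59.ASU9.LFT
import Cfsg.Agent.Lib.Helper59.ASU9.SOLV
import Cfsg.Agent.Lib.Helper59.ASU9.QSOL
import Cfsg.Agent.Lib.Helper77.AschG.CaseB
import Cfsg.Agent.Lib.Helper32.AschU.Main
import Cfsg.Agent.Lib.Helper47.UC.ENVAU

/-! Ladder ASU9 (S5832): the C7 block for SU_9(q). -/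

set_option autoImplicit false

namespace Cfsg.Agent.Lib.Helper59.ASU9

open Cfsg Cfsg.Geo Cfsg.Agent.Lib.Helper77.Asch Cfsg.Agent.Lib.Helper77.AschG Cfsg.Agent.Lib.Helper5.AschC
open scoped MatrixGroups Matrix Kronecker

variable {n : ℕ} {F : Type*} [Field F]

/-- from a tensor structure `3 ⊗ 3` of the hermitian form to a tensor power structure. -/
theorem exists_power_form [Fintype F] (q : ℕ) (hF : Fintype.card F = q ^ 2) (e : Fin n ≃ Fin 3 × Fin 3)
    (P : GL (Fin n) F) (f₁ f₂ : (Fin 3 → F) → (Fin 3 → F) → F) (h1 : IsUnitaryFormPow q f₁)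
    (h2 : IsUnitaryFormPow q f₂)
    (hT : IsTensorFormStructure (fun x : F => x ^ q) (hermForm n F q) f₁ f₂ e P) :
    ∃ P' : GL (Fin n) F,
      IsTensorPowerFormStructure (fun x : F => x ^ q) (hermForm n F q) (hermForm 3 F q) (eW e) P' ∧
      tensorWreathSubgroup 3 2 (eW e) P' = tensorWreathSubgroup 3 2 (eW e) P ∧
      tensorProductSubgroup 3 3 e P' = tensorProductSubgroup 3 3 e P ∧
      ∀ (i : Fin 2) (x : Matrix (Fin 3) (Fin 3) F), ∃ y, tw (eW e) P (slot i x) = tw (eW e) P' (slot i y) := by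
  obtain ⟨C₁, hC₁⟩ := exists_onb q hF f₁ h1
  obtain ⟨C₂, hC₂⟩ := exists_onb q hF f₂ h2
  obtain ⟨P', hP', hW, hTP, hsl⟩ := exists_changeP e P C₁ C₂
  exact ⟨P', power_form_of_tensor q hF e P P' f₁ f₂ h1 h2 hT C₁ C₂ hC₁ hC₂ hP', hW, hTP, hsl⟩

theorem eW_trans (e : Fin n ≃ (Fin 2 → Fin 3)) : eW (e.trans (finTwoArrowEquiv (Fin 3))) = e := by
  ext i : 1
  simp only [eW, Equiv.trans_apply, Equiv.symm_apply_apply]

theorem caseB_U [Fintype F] (q : ℕ) (hF : Fintype.card F = q ^ 2) (H N : Subgroup (GL (Fin 9) F))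
    (hHs : H ≤ similarityGroup (hermForm 9 F q))
    (hm : MinOver H (scalars (Fin 9) F) N) (hnab : ¬ ⁅N, N⁆ ≤ scalars (Fin 9) F)
    (hN : ActsAbsolutelyIrreducibly (matrixSet N))
    (hns : ¬ ∀ M : Subgroup (GL (Fin 9) F), scalars (Fin 9) F ≤ M → M ≤ N → NormBy N M →
      M = scalars (Fin 9) F ∨ M = N) : InGeo9 q H := by
  classical
  have hn : 0 < 9 := by norm_num
  have hZc : ∀ z ∈ scalars (Fin 9) F, ∀ g : GL (Fin 9) F, g * z = z * g :=
    fun z hz g => Cfsg.Agent.Lib.Helper77.Asch.scalars_central z hz g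
  obtain ⟨Q, k, g, hk, hgH, hQN, hQZ, hQnorm, hcomm, hgen, hfac, hperm⟩ :=
    exists_commuting_conj' H (scalars (Fin 9) F) N hZc hm hnab hns
  have hA := spanAlg_norm N Q hQnorm
  obtain ⟨I, hI⟩ := exists_minIdl hn (spanAlg Q)
  obtain ⟨U, hU⟩ := ideal_faith hn N hN.1 _ hA I hI (idl_inv_of_fac Q N hfac I hI.idl)
  obtain ⟨a, φ, ha, hφ⟩ := dens _ U hU (cen_finrank_of_fac hn Q N hfac hN)
  have hcomm' : ∀ i j, i ≠ j → ∀ x y, (conjA (g i)).comp φ x * (conjA (g j)).comp φ y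
      = (conjA (g j)).comp φ y * (conjA (g i)).comp φ x :=
    fun i j hij => conj_comm Q (g i) (g j) (hcomm i j hij) φ hφ
  have hnk : 9 = a ^ k := pw hn ha (fun i => (conjA (g i)).comp φ) hcomm'
    (adjoin_conj_eq_top hn N Q g hN hgen φ hφ)
  have ha1 : a ≠ 1 := by
    rintro rfl
    exact hQZ (le_scalars_of_range hn φ Q hφ)
  have hak : a = 3 ∧ k = 2 := by
    have ha9 : a ≤ 9 := by
      calc a = a ^ 1 := (pow_one a).symm
        _ ≤ a ^ k := Nat.pow_le_pow_right ha (by omega)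
        _ = 9 := hnk.symm
    have hk4 : k < 4 := by
      by_contra hcon
      have h2a : 2 ≤ a := by omega
      have : 2 ^ 4 ≤ a ^ k := (Nat.pow_le_pow_left h2a 4).trans (Nat.pow_le_pow_right ha (by omega))
      omega
    interval_cases k <;> interval_cases a <;> first | exact ⟨rfl, rfl⟩ | (exfalso; norm_num at hnk) | (exfalso; exact ha1 rfl)
  obtain ⟨rfl, rfl⟩ := hak
  obtain ⟨Ψ, hΨ⟩ := exists_tensor_hom (fun i => (conjA (g i)).comp φ) hcomm'
  obtain ⟨e, P, hP⟩ := tensor_basis_of_hom hnk Ψ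
  have hslot : ∀ i x, tw e P (slot i x) = conjA (g i) (φ x) := by
    intro i x
    rw [← hP, hΨ]
    rfl
  have hle : H ≤ tensorWreathSubgroup 3 2 e P := by
    intro h hh
    obtain ⟨σ, hσ⟩ := hperm h hh
    refine mem_tensorWreath (by omega) e P h σ (fun i x => ?_)
    have h1 : conjA (h * g i) (φ x) ∈ (spanAlg Q).map (conjA (g (σ i))) := by
      rw [← spanAlg_conj, ← hσ i, spanAlg_conj]
      exact ⟨φ x, hφ ▸ ⟨x, rfl⟩, rfl⟩
    obtain ⟨z, hz, hz'⟩ := h1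
    rw [← hφ] at hz
    obtain ⟨y, rfl⟩ := hz
    refine ⟨y, ?_⟩
    rw [hslot, hslot]
    have h2 : conjA (g (σ i)) (φ y) = conjA (h * g i) (φ x) := hz'
    rw [h2, conjA_mul]
    rfl
  -- the hermitian form
  set Q0 : Subgroup (GL (Fin 9) F) := Q.map (MulAut.conj (g 0)).toMonoidHom with hQ0
  have hQ0s : Q0 ≤ similarityGroup (hermForm 9 F q) := by
    rintro _ ⟨y, hy, rfl⟩
    have hy' := hHs (hm.le (hQN hy))
    have hg' := hHs (hgH 0)
    exact Subgroup.mul_mem _ (Subgroup.mul_mem _ hg' hy') (Subgroup.inv_mem _ hg')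
  have hadj : IsAdjointClosedFor (hermForm 9 F q) (spanAlg Q0) :=
    Cfsg.Agent.Lib.Helper47.UC.env_adj_U q hF Q0 hQ0s
  have hB : ∀ y, y ∈ spanAlg Q0 ↔ ∃ x : Matrix (Fin 3) (Fin 3) F, y = tw e P (slot 0 x) := by
    intro y
    rw [hQ0, spanAlg_conj, ← hφ]
    constructor
    · rintro ⟨_, ⟨x, rfl⟩, rfl⟩
      exact ⟨x, (hslot 0 x).symm⟩
    · rintro ⟨x, rfl⟩
      exact ⟨φ x, ⟨x, rfl⟩, (hslot 0 x).symm⟩
  have hLF := leftFactor_of_slot e P (spanAlg Q0) hB
  obtain ⟨f₁, f₂, hf₁, hf₂, hT⟩ := tensor_form_of_leftFactor q hF (by norm_num) (by norm_num) (spanAlg Q0)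
    (e.trans (finTwoArrowEquiv (Fin 3))) P hLF hadj
  obtain ⟨P', hT', hW, -, hsl⟩ := exists_power_form q hF (e.trans (finTwoArrowEquiv (Fin 3))) P f₁ f₂ hf₁ hf₂ hT
  rw [eW_trans] at hT' hW hsl
  by_cases hq3 : 3 ≤ q
  · exact Or.inr (Or.inr (Or.inr (Or.inr (Or.inr (Or.inr (Or.inr (Or.inr ⟨hq3, e, P', hT', hW ▸ hle⟩)))))))
  · exfalso
    have hq2 : q = 2 := by
      have h1 : 1 < Fintype.card F := Fintype.one_lt_card
      rw [hF] at h1
      have : q ≠ 0 := by rintro rfl; simp at h1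
      have : q ≠ 1 := by rintro rfl; simp at h1
      omega
    subst hq2
    have hsolQ0 : Group.IsSolvable Q0 := by
      refine solvable_of_slot hF e P' hT' 0 Q0 hQ0s ?_
      intro y hy
      obtain ⟨x, hx⟩ := (hB _).1 (Algebra.subset_adjoin ⟨y, hy, rfl⟩ : (y : Matrix (Fin 9) (Fin 9) F) ∈ spanAlg Q0)
      obtain ⟨x', hx'⟩ := hsl 0 x
      exact ⟨x', hx.trans hx'⟩
    have hsolQ : Group.IsSolvable Q := by
      let ψ : Q →* Q0 := ((MulAut.conj (g 0)).toMonoidHom.subgroupMap Q)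
      have hinj : Function.Injective ψ := by
        intro u v huv
        have := congrArg Subtype.val huv
        exact Subtype.ext ((MulAut.conj (g 0)).injective this)
      exact Group.isSolvable_of_isSolvable_injective hinj
    obtain ⟨hperf, hPZ⟩ := perfect_core H (scalars (Fin 9) F) N hZc hm hnab
    have hcen := central_of_solvable N Q ⁅N, N⁆ hfac (Subgroup.commutator_le_self N) hperf hsolQ
    apply hQZ
    intro y hy
    refine Cfsg.Agent.Lib.Helper32.AschU.mem_scalars_of_commutes hn N hN y ?_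
    intro x hx
    rw [← hPZ] at hx
    haveI : (scalars (Fin 9) F).Normal := inferInstance
    obtain ⟨u, hu, z, hz, rfl⟩ := Subgroup.mem_sup_of_normal_right.1 hx
    calc y * (u * z) = (y * u) * z := (mul_assoc _ _ _).symm
      _ = (u * y) * z := by rw [hcen u hu y hy]
      _ = u * (y * z) := mul_assoc _ _ _
      _ = u * (z * y) := by rw [hZc z hz y]
      _ = u * z * y := (mul_assoc _ _ _).symm

end Cfsg.Agent.Lib.Helper59.ASU9
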