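import Cfsg.Agent.Lib.Helper59.ASU9.Defs

set_option autoImplicit false

namespace Cfsg.Agent.Lib.Helper59.ASU9

open Cfsg Cfsg.Geo Cfsg.Agent.Lib.Helper77.Asch Cfsg.Agent.Lib.Helper77.AschG Cfsg.Agent.Lib.Helper32.AschU
  Cfsg.Agent.Lib.Helper80.AS Cfsg.Agent.Lib.Helper47.UC
open scoped MatrixGroups Matrix Kronecker commutatorElement

variable {n : ℕ} {F : Type*} [Field F]

theorem pc6_mul (a b : GL (Fin n) F) (v : Fin n → F) :
    ((a * b : GL (Fin n) F) : Matrix (Fin n) (Fin n) F) *ᵥ v =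
      (a : Matrix (Fin n) (Fin n) F) *ᵥ ((b : Matrix (Fin n) (Fin n) F) *ᵥ v) := by
  rw [Units.val_mul, Matrix.mulVec_mulVec]

theorem pc6_inv_mul (a : GL (Fin n) F) (v : Fin n → F) :
    ((a⁻¹ : GL (Fin n) F) : Matrix (Fin n) (Fin n) F) *ᵥ ((a : Matrix (Fin n) (Fin n) F) *ᵥ v) = v := by
  rw [← pc6_mul, inv_mul_cancel, Units.val_one, Matrix.one_mulVec]

theorem pc6_mul_inv (a : GL (Fin n) F) (v : Fin n → F) :
    (a : Matrix (Fin n) (Fin n) F) *ᵥ (((a⁻¹ : GL (Fin n) F) : Matrix (Fin n) (Fin n) F) *ᵥ v) = v := by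
  rw [← pc6_mul, mul_inv_cancel, Units.val_one, Matrix.one_mulVec]

theorem pc6_ker (ψ : (Fin n → F) →ₗ[F] F) : n ≤ Module.finrank F (LinearMap.ker ψ) + 1 := by
  have h1 := LinearMap.finrank_range_add_finrank_ker ψ
  have h2 : Module.finrank F (LinearMap.range ψ) ≤ 1 := by
    have := Submodule.finrank_le (LinearMap.range ψ)
    rwa [Module.finrank_self] at this
  rw [Module.finrank_fintype_fun_eq_card, Fintype.card_fin] at h1
  omega

theorem pc6_ker2 (ψ ψ' : (Fin n → F) →ₗ[F] F) :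
    n ≤ Module.finrank F (LinearMap.ker ψ ⊓ LinearMap.ker ψ' : Submodule F (Fin n → F)) + 2 := by
  have h1 := pc6_ker ψ
  have h2 := pc6_ker ψ'
  have h3 := Submodule.finrank_sup_add_finrank_inf_eq (LinearMap.ker ψ) (LinearMap.ker ψ')
  have h4 := Submodule.finrank_le (LinearMap.ker ψ ⊔ LinearMap.ker ψ')
  rw [Module.finrank_fintype_fun_eq_card, Fintype.card_fin] at h4
  omega

theorem pc6_exists_ne (W : Submodule F (Fin n → F)) (h : 0 < Module.finrank F W) : ∃ w ∈ W, w ≠ 0 := by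
  apply Submodule.exists_mem_ne_zero_of_ne_bot
  rintro rfl
  rw [finrank_bot] at h
  exact lt_irrefl _ h

theorem pc6_core (h5 : 5 ≤ n) (g h : GL (Fin n) F) (c : F) (hc : c ≠ 1) (W : Submodule F (Fin n → F))
    (hW : n ≤ Module.finrank F W + 2) (hfix : ∀ w ∈ W, (g : Matrix (Fin n) (Fin n) F) *ᵥ w = w)
    (hgh : ∀ v, (h : Matrix (Fin n) (Fin n) F) *ᵥ ((g : Matrix (Fin n) (Fin n) F) *ᵥ v) =
      c • ((g : Matrix (Fin n) (Fin n) F) *ᵥ ((h : Matrix (Fin n) (Fin n) F) *ᵥ v))) : False := by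
  set T : (Fin n → F) →ₗ[F] (Fin n → F) := (h : Matrix (Fin n) (Fin n) F).mulVecLin with hT
  have hTinj : Function.Injective T := by
    intro v v' hv
    have hv' : (h : Matrix (Fin n) (Fin n) F) *ᵥ v = (h : Matrix (Fin n) (Fin n) F) *ᵥ v' := hv
    rw [← pc6_inv_mul h v, hv', pc6_inv_mul]
  have hdis : Disjoint W (W.map T) := by
    rw [Submodule.disjoint_def]
    rintro v hv ⟨w, hw, rfl⟩
    have e1 : T w = (h : Matrix (Fin n) (Fin n) F) *ᵥ w := rfl
    have e2 := hgh w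
    rw [hfix w hw, ← e1, hfix _ hv] at e2
    have e3 : (1 - c) • T w = 0 := by
      rw [sub_smul, one_smul, ← e2, sub_self]
    exact (smul_eq_zero.1 e3).resolve_left (sub_ne_zero.2 (Ne.symm hc))
  have h1 := Submodule.finrank_add_finrank_le_of_disjoint hdis
  rw [← (Submodule.equivMapOfInjective T hTinj W).finrank_eq, Module.finrank_fintype_fun_eq_card,
    Fintype.card_fin] at h1
  omega

theorem pc6_scalar_one (g : GL (Fin n) F) (c : F) (hg : (g : Matrix (Fin n) (Fin n) F) = c • 1)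
    (w : Fin n → F) (hw : w ≠ 0) (hfix : (g : Matrix (Fin n) (Fin n) F) *ᵥ w = w) : g = 1 := by
  rw [hg, Matrix.smul_mulVec, Matrix.one_mulVec] at hfix
  have e3 : (c - 1) • w = 0 := by rw [sub_smul, one_smul, hfix, sub_self]
  have hc : c = 1 := sub_eq_zero.1 ((smul_eq_zero.1 e3).resolve_right hw)
  apply Units.ext
  rw [hg, hc, one_smul, Units.val_one]

/-- PC6 -/
theorem tv_not_mem_normalizer (h5 : 5 ≤ n) (R : Subgroup (GL (Fin n) F)) (hab : ⁅R, R⁆ ≤ scalars (Fin n) F)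
    (hR : ActsAbsolutelyIrreducibly (matrixSet R)) (τ : GL (Fin n) F) (hτ : IsTv τ) :
    τ ∉ subgroupNormalizer R := by
  intro hmem
  obtain ⟨hτ1, u, φ, hφu, hτv⟩ := hτ
  have hnorm : ∀ x, x ∈ R ↔ τ * x * τ⁻¹ ∈ R := fun x => Subgroup.mem_normalizer_iff.1 hmem x
  have hτfix : ∀ w, φ w = 0 → (τ : Matrix (Fin n) (Fin n) F) *ᵥ w = w := by
    intro w hw
    rw [hτv, hw, zero_smul, add_zero]
  have hτfix' : ∀ w, φ w = 0 → ((τ⁻¹ : GL (Fin n) F) : Matrix (Fin n) (Fin n) F) *ᵥ w = w := by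
    intro w hw
    conv_lhs => rw [← hτfix w hw]
    exact pc6_inv_mul τ w
  have hsc : ∀ g : GL (Fin n) F, (∀ x ∈ R, g * x = x * g) → ∃ c : F, (g : Matrix (Fin n) (Fin n) F) = c • 1 := by
    intro g hg
    apply hR.2
    rintro _ ⟨x, hx, rfl⟩
    rw [← Units.val_mul, ← Units.val_mul, hg x hx]
  by_cases hall : ∀ x ∈ R, τ * x = x * τ
  · obtain ⟨c, hc⟩ := hsc τ hall
    obtain ⟨w, hw, hw0⟩ := pc6_exists_ne (LinearMap.ker φ) (by have := pc6_ker φ; omega)
    exact hτ1 (pc6_scalar_one τ c hc w hw0 (hτfix w hw))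
  · push Not at hall
    obtain ⟨x, hx, hxτ⟩ := hall
    set g : GL (Fin n) F := x * τ * x⁻¹ * τ⁻¹ with hg
    have hgR : g ∈ R := by
      have e : g = x * (τ * x⁻¹ * τ⁻¹) := by rw [hg]; group
      rw [e]
      exact mul_mem hx ((hnorm _).1 (inv_mem hx))
    have hg1 : g ≠ 1 := by
      intro h1
      apply hxτ
      have : x * τ = g * (τ * x) := by rw [hg]; group
      rw [h1, one_mul] at this
      exact this.symm
    set ψ : (Fin n → F) →ₗ[F] F := φ ∘ₗ ((x⁻¹ : GL (Fin n) F) : Matrix (Fin n) (Fin n) F).mulVecLin with hψ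
    set W : Submodule F (Fin n → F) := LinearMap.ker φ ⊓ LinearMap.ker ψ with hWd
    have hW : n ≤ Module.finrank F W + 2 := pc6_ker2 φ ψ
    have hfix : ∀ w ∈ W, (g : Matrix (Fin n) (Fin n) F) *ᵥ w = w := by
      rintro w ⟨hw1, hw2⟩
      have hw1' : φ w = 0 := hw1
      have hw2' : φ (((x⁻¹ : GL (Fin n) F) : Matrix (Fin n) (Fin n) F) *ᵥ w) = 0 := hw2
      rw [hg, pc6_mul, pc6_mul, pc6_mul, hτfix' w hw1', hτfix _ hw2', pc6_mul_inv]
    by_cases hcomm : ∀ h ∈ R, g * h = h * g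
    · obtain ⟨c, hc⟩ := hsc g hcomm
      obtain ⟨w, hw, hw0⟩ := pc6_exists_ne W (by omega)
      exact hg1 (pc6_scalar_one g c hc w hw0 (hfix w hw))
    · push Not at hcomm
      obtain ⟨h, hh, hgh⟩ := hcomm
      have hcm : ⁅h, g⁆ ∈ scalars (Fin n) F := hab (Subgroup.commutator_mem_commutator hh hgR)
      obtain ⟨c, hc⟩ := (mem_scalars_iff _).1 hcm
      have hc1 : (c : F) ≠ 1 := by
        intro h1
        apply hgh
        have e1 : ⁅h, g⁆ = 1 := by
          apply Units.ext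
          rw [hc, h1, one_smul, Units.val_one]
        have e2 : h * g = ⁅h, g⁆ * (g * h) := by rw [commutatorElement_def]; group
        rw [e1, one_mul] at e2
        exact e2.symm
      refine pc6_core h5 g h (c : F) hc1 W hW hfix fun v => ?_
      have e2 : h * g = ⁅h, g⁆ * (g * h) := by rw [commutatorElement_def]; group
      rw [← pc6_mul, e2, pc6_mul, hc, Matrix.smul_mulVec, Matrix.one_mulVec, pc6_mul]

end Cfsg.Agent.Lib.Helper59.ASU9
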