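import Cfsg.Agent.Lib.Helper59.ASU9.TWS
import Cfsg.Agent.Lib.Helper47.UC.PTEN

set_option autoImplicit false

namespace Cfsg.Agent.Lib.Helper59.ASU9

open Cfsg Cfsg.Geo Cfsg.Agent.Lib.Helper77.Asch Cfsg.Agent.Lib.Helper77.AschG Cfsg.Agent.Lib.Helper32.AschU
  Cfsg.Agent.Lib.Helper80.AS Cfsg.Agent.Lib.Helper47.UC
open scoped MatrixGroups Matrix Kronecker

variable {n : ℕ} {F : Type*} [Field F]

theorem ptw_add_left {m : ℕ} (x x' y : Fin m → F) : twsT (x + x') y = twsT x y + twsT x' y := by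
  ext p; simp [twsT, add_mul]

theorem ptw_add_right {m : ℕ} (x y y' : Fin m → F) : twsT x (y + y') = twsT x y + twsT x y' := by
  ext p; simp [twsT, mul_add]

theorem ptw_smul_left {m : ℕ} (c : F) (x y : Fin m → F) : twsT (c • x) y = c • twsT x y := by
  ext p; simp [twsT, mul_assoc]

theorem ptw_smul_right {m : ℕ} (c : F) (x y : Fin m → F) : twsT x (c • y) = c • twsT x y := by
  ext p; simp [twsT, mul_left_comm]

theorem ptw_to_pten {m : ℕ} {x x' y y' : Fin m → F} (h : twsT x' y' = twsT x y) :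
    ptenTp x' y' = ptenTp x y := by
  funext ⟨i, j⟩
  have := congrFun h ![i, j]
  simpa [twsT, ptenTp] using this

theorem ptw_single {m : ℕ} (p : Fin 2 → Fin m) :
    (Pi.single p 1 : (Fin 2 → Fin m) → F) = twsT (Pi.single (p 0) 1) (Pi.single (p 1) 1) := by
  funext z
  simp only [twsT, Pi.single_apply]
  by_cases h : z = p
  · subst h; simp
  · rw [if_neg h]
    have : ¬ (z 0 = p 0 ∧ z 1 = p 1) := by
      rintro ⟨h0, h1⟩
      apply h
      funext i
      fin_cases i
      · exact h0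
      · exact h1
    by_cases h0 : z 0 = p 0
    · have h1 : z 1 ≠ p 1 := fun h1 => this ⟨h0, h1⟩
      simp [h1]
    · simp [h0]

/-- two linear forms on a space of dimension at least 3 have a common non-zero kernel vector. -/
theorem ptw_ker2 {m : ℕ} (hm : 3 ≤ m) (l₁ l₂ : (Fin m → F) →ₗ[F] F) :
    ∃ w, w ≠ 0 ∧ l₁ w = 0 ∧ l₂ w = 0 := by
  have h : LinearMap.ker (l₁.prod l₂) ≠ ⊥ := by
    apply LinearMap.ker_ne_bot_of_finrank_lt
    rw [Module.finrank_prod, Module.finrank_self, Module.finrank_fin_fun]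
    omega
  obtain ⟨w, hw, hw0⟩ := (Submodule.ne_bot_iff _).1 h
  rw [LinearMap.mem_ker, LinearMap.prod_apply, Prod.mk_eq_zero] at hw
  exact ⟨w, hw0, hw.1, hw.2⟩

/-- PTW (a transvection lies in no tensor wreath group with two factors of dimension `m ≥ 3`). -/
theorem tv_not_mem_tensorWreath {m : ℕ} (hm : 3 ≤ m) (e' : Fin n ≃ (Fin 2 → Fin m)) (P : GL (Fin n) F)
    (τ : GL (Fin n) F) (hτ : IsTv τ) : τ ∉ tensorWreathSubgroup m 2 e' P := by
  intro hmem
  obtain ⟨_, ⟨g, hg, rfl⟩, hτe⟩ := hmem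
  obtain ⟨hτ1, u, φ, hφu, hτv⟩ := hτ
  have hmat : (τ : Matrix (Fin n) (Fin n) F) = (P : Matrix (Fin n) (Fin n) F) *
      Matrix.reindexAlgEquiv F F e'.symm (g : Matrix (Fin 2 → Fin m) (Fin 2 → Fin m) F) *
      ((P⁻¹ : GL (Fin n) F) : Matrix (Fin n) (Fin n) F) := by
    rw [← hτe]; rfl
  let L : ((Fin 2 → Fin m) → F) → (Fin n → F) := fun z => (P : Matrix (Fin n) (Fin n) F) *ᵥ (z ∘ e')
  have hLadd : ∀ z z', L (z + z') = L z + L z' := by
    intro z z'
    simp only [L]
    rw [← Matrix.mulVec_add]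
    rfl
  have hLsm : ∀ (c : F) z, L (c • z) = c • L z := by
    intro c z
    simp only [L]
    rw [← Matrix.mulVec_smul]
    rfl
  have hLinj : ∀ z z', L z = L z' → z = z' := by
    intro z z' h
    have h1 : ((P⁻¹ : GL (Fin n) F) : Matrix (Fin n) (Fin n) F) *ᵥ L z
        = ((P⁻¹ : GL (Fin n) F) : Matrix (Fin n) (Fin n) F) *ᵥ L z' := by rw [h]
    simp only [L] at h1
    rw [Matrix.mulVec_mulVec, Matrix.mulVec_mulVec, Cfsg.Agent.Lib.Helper80.AS.tmul_inv_mul,
      Matrix.one_mulVec, Matrix.one_mulVec] at h1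
    funext p
    have := congrFun h1 (e'.symm p)
    simpa using this
  have hLsurj : ∀ v, ∃ z, L z = v := by
    intro v
    refine ⟨(((P⁻¹ : GL (Fin n) F) : Matrix (Fin n) (Fin n) F) *ᵥ v) ∘ e'.symm, ?_⟩
    simp only [L]
    have : ((((P⁻¹ : GL (Fin n) F) : Matrix (Fin n) (Fin n) F) *ᵥ v) ∘ e'.symm) ∘ e' =
        ((P⁻¹ : GL (Fin n) F) : Matrix (Fin n) (Fin n) F) *ᵥ v := by
      funext i; simp
    rw [this, Matrix.mulVec_mulVec, Cfsg.Agent.Lib.Helper80.AS.tmul_mul_inv, Matrix.one_mulVec]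
  have hτL : ∀ z, L ((g : Matrix (Fin 2 → Fin m) (Fin 2 → Fin m) F) *ᵥ z) = L z + φ (L z) • u := by
    intro z
    rw [← hτv, hmat]
    simp only [L]
    rw [Matrix.mulVec_mulVec, mul_assoc, Cfsg.Agent.Lib.Helper80.AS.tmul_inv_mul, mul_one,
      ← Matrix.mulVec_mulVec]
    congr 1
    funext i
    simp only [Matrix.reindexAlgEquiv_apply, Matrix.reindex_apply, Equiv.symm_symm, Matrix.mulVec,
      dotProduct, Matrix.submatrix_apply, Function.comp_apply]
    exact (Fintype.sum_equiv e' _ _ (fun _ => rfl)).symm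
  have hm2 : 2 ≤ m := by omega
  rcases tws_aux g hg with ⟨a, b, hab⟩ | ⟨a, b, hab⟩
  · set A : Matrix (Fin m) (Fin m) F := (a : Matrix (Fin m) (Fin m) F) with hA
    set B : Matrix (Fin m) (Fin m) F := (b : Matrix (Fin m) (Fin m) F) with hB
    have hfix : ∀ x y, φ (L (twsT x y)) = 0 → twsT (A *ᵥ x) (B *ᵥ y) = twsT x y := by
      intro x y h
      apply hLinj
      rw [← hab, hτL, h, zero_smul, add_zero]
    obtain ⟨ca, hca⟩ := pten_scalar hm2 A (by
      intro x hx
      obtain ⟨y, hy, hy0⟩ := pten_ker hm2 (fun y => φ (L (twsT x y)))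
        (by intro y y'; simp only [ptw_add_right, hLadd, map_add])
        (by intro c y; simp only [ptw_smul_right, hLsm, map_smul, smul_eq_mul])
      exact (pten_eig x _ y _ hx hy (ptw_to_pten (hfix x y hy0))).1)
    obtain ⟨cb, hcb⟩ := pten_scalar hm2 B (by
      intro y hy
      obtain ⟨x, hx, hx0⟩ := pten_ker hm2 (fun x => φ (L (twsT x y)))
        (by intro x x'; simp only [ptw_add_left, hLadd, map_add])
        (by intro c x; simp only [ptw_smul_left, hLsm, map_smul, smul_eq_mul])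
      exact (pten_eig x _ y _ hx hy (ptw_to_pten (hfix x y hx0))).2)
    have hpure : ∀ x y, (g : Matrix (Fin 2 → Fin m) (Fin 2 → Fin m) F) *ᵥ twsT x y =
        (ca * cb) • twsT x y := by
      intro x y
      rw [hab, hca, hcb, Matrix.smul_mulVec, Matrix.smul_mulVec, Matrix.one_mulVec,
        Matrix.one_mulVec, ptw_smul_left, ptw_smul_right, smul_smul]
    have hgmat : (g : Matrix (Fin 2 → Fin m) (Fin 2 → Fin m) F) =
        (ca * cb) • (1 : Matrix (Fin 2 → Fin m) (Fin 2 → Fin m) F) := by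
      ext i j
      have := congrFun (hpure (Pi.single (j 0) 1) (Pi.single (j 1) 1)) i
      rw [← ptw_single, Matrix.mulVec_single_one] at this
      simp only [Matrix.col_apply, Pi.smul_apply, Pi.single_apply] at this
      rw [this, Matrix.smul_apply, Matrix.one_apply]
    have hall : ∀ v, (ca * cb) • v = v + φ v • u := by
      intro v
      obtain ⟨z, rfl⟩ := hLsurj v
      rw [← hτL, hgmat, Matrix.smul_mulVec, Matrix.one_mulVec, hLsm]
    apply hτ1
    apply Units.ext
    rw [Units.val_one]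
    have hfin : ∀ v, (τ : Matrix (Fin n) (Fin n) F) *ᵥ v = v := by
      by_cases hu : u = 0
      · intro v
        rw [hτv, hu, smul_zero, add_zero]
      · have h1 := hall u
        rw [hφu, zero_smul, add_zero] at h1
        have h2 : ca * cb = 1 := by
          obtain ⟨i, hi⟩ : ∃ i, u i ≠ 0 := by
            by_contra h'
            push Not at h'
            exact hu (funext h')
          have := congrFun h1 i
          rw [Pi.smul_apply, smul_eq_mul] at this
          exact mul_right_cancel₀ hi (by rw [this, one_mul])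
        intro v
        rw [hτv, ← hall, h2, one_smul]
    ext i j
    have := congrFun (hfin (Pi.single j 1)) i
    rw [Matrix.mulVec_single_one] at this
    simp only [Matrix.col_apply] at this
    rw [this, Matrix.one_apply, Pi.single_apply]
  · -- the swap case
    let i0 : Fin m := ⟨0, by omega⟩
    set x0 : Fin m → F := Pi.single i0 1 with hx0
    have hx0ne : x0 ≠ 0 := by
      intro h
      have := congrFun h i0
      simp [hx0] at this
    let l₁ : (Fin m → F) →ₗ[F] F :=
      { toFun := fun w => φ (L (twsT x0 w))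
        map_add' := by intro y y'; simp only [ptw_add_right, hLadd, map_add]
        map_smul' := by intro c y; simp only [ptw_smul_right, hLsm, map_smul, smul_eq_mul, RingHom.id_apply] }
    let l₂ : (Fin m → F) →ₗ[F] F :=
      { toFun := fun w => ((a : Matrix (Fin m) (Fin m) F) *ᵥ w) i0
        map_add' := by intro y y'; rw [Matrix.mulVec_add]; rfl
        map_smul' := by intro c y; rw [Matrix.mulVec_smul]; rfl }
    obtain ⟨w, hw0, hw1, hw2⟩ := ptw_ker2 hm l₁ l₂
    have hw1' : φ (L (twsT x0 w)) = 0 := hw1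
    have hw2' : ((a : Matrix (Fin m) (Fin m) F) *ᵥ w) i0 = 0 := hw2
    have hfix : twsT ((a : Matrix (Fin m) (Fin m) F) *ᵥ w) ((b : Matrix (Fin m) (Fin m) F) *ᵥ x0) =
        twsT x0 w := by
      apply hLinj
      rw [← hab, hτL, hw1', zero_smul, add_zero]
    obtain ⟨c, hc⟩ := (pten_eig x0 _ w _ hx0ne hw0 (ptw_to_pten hfix)).1
    have hc0 : c = 0 := by
      have := congrFun hc i0
      rw [hw2', Pi.smul_apply, smul_eq_mul, hx0, Pi.single_eq_same, mul_one] at this
      exact this.symm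
    rw [hc0, zero_smul] at hc
    apply hw0
    have := tws_mul_inv_mulVec a⁻¹ w
    rw [inv_inv, hc, Matrix.mulVec_zero] at this
    exact this.symm

end Cfsg.Agent.Lib.Helper59.ASU9
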