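import Cfsg.Agent.Lib.Helper59.ASU9.Main9
import Cfsg.Agent.Lib.Helper59.ASU9.PTW
import Cfsg.Agent.Lib.Helper59.ASU9.PC6
import Cfsg.Agent.Lib.Helper59.ASU9.SWP
import Cfsg.Agent.Lib.Helper59.ASU9.HUF
import Cfsg.Agent.Lib.Helper47.UC.PDEC
import Cfsg.Agent.Lib.Helper47.UC.PFLD
import Cfsg.Agent.Lib.Helper38.AschG.TPW

/-! Ladder ASU9 (S5832): the maximal subgroups of SU_9(q). -/

set_option autoImplicit false

namespace Cfsg.Agent.Lib.Helper59.ASU9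

open Cfsg Cfsg.Geo Cfsg.Agent.Lib.Helper77.Asch Cfsg.Agent.Lib.Helper32.AschU Cfsg.Agent.Lib.Helper47.UC
open scoped MatrixGroups Matrix Kronecker

variable {F : Type*} [Field F]

theorem final9 [Fintype F] (q : ℕ) (hF : Fintype.card F = q ^ 2) (H : Subgroup (Matrix.GeneralLinearGroup (Fin 9) F)) (hH : Cfsg.Geo.IsMaximalIn (Cfsg.GU 9 F q ⊓ Cfsg.Geo.specialLinear (Fin 9) F) H) :
    (∃ W : Submodule F (Fin 9 → F), W ≠ ⊥ ∧ Cfsg.Geo.IsTotallySingularFor (Cfsg.hermForm 9 F q) W ∧ H = Cfsg.Geo.subspaceStabilizer W ⊓ (Cfsg.GU 9 F q ⊓ Cfsg.Geo.specialLinear (Fin 9) F)) ∨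
    (∃ W : Submodule F (Fin 9 → F), W ≠ ⊥ ∧ Cfsg.Geo.IsNondegenerateOn (Cfsg.hermForm 9 F q) W ∧ 2 * Module.finrank F W < 9 ∧ H = Cfsg.Geo.subspaceStabilizer W ⊓ (Cfsg.GU 9 F q ⊓ Cfsg.Geo.specialLinear (Fin 9) F)) ∨
    (∃ D : Fin 9 → Submodule F (Fin 9 → F), Cfsg.Geo.IsNondegenerateMDecomposition (Cfsg.hermForm 9 F q) 1 D ∧ H = Cfsg.Geo.decompositionStabilizer D ⊓ (Cfsg.GU 9 F q ⊓ Cfsg.Geo.specialLinear (Fin 9) F)) ∨
    (∃ D : Fin 3 → Submodule F (Fin 9 → F), Cfsg.Geo.IsNondegenerateMDecomposition (Cfsg.hermForm 9 F q) 3 D ∧ H = Cfsg.Geo.decompositionStabilizer D ⊓ (Cfsg.GU 9 F q ⊓ Cfsg.Geo.specialLinear (Fin 9) F)) ∨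
    (∃ K : Subalgebra F (Matrix (Fin 9) (Fin 9) F), Cfsg.Geo.IsFieldSubalgebra 3 K ∧ Cfsg.Geo.IsAdjointClosedFor (Cfsg.hermForm 9 F q) K ∧ H = Cfsg.Geo.subalgebraNormalizer K ⊓ (Cfsg.GU 9 F q ⊓ Cfsg.Geo.specialLinear (Fin 9) F)) ∨
    (∃ (F₀ : Subfield F) (r : ℕ) (P : Matrix.GeneralLinearGroup (Fin 9) F), r.Prime ∧ Odd r ∧ Fintype.card F = Nat.card F₀ ^ r ∧ Cfsg.Geo.IsFormRationalStructure (Cfsg.hermForm 9 F q) F₀ 1 P ∧ H = Cfsg.Geo.subfieldSubgroup F₀ P ⊓ (Cfsg.GU 9 F q ⊓ Cfsg.Geo.specialLinear (Fin 9) F)) ∨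
    (Odd q ∧ ∃ (F₀ : Subfield F) (P : Matrix.GeneralLinearGroup (Fin 9) F), Fintype.card F = Nat.card F₀ ^ 2 ∧ Cfsg.Geo.IsFormRationalStructure (Cfsg.hermForm 9 F q) F₀ 1 P ∧ H = Cfsg.Geo.subfieldSubgroup F₀ P ⊓ (Cfsg.GU 9 F q ⊓ Cfsg.Geo.specialLinear (Fin 9) F)) ∨
    (∃ (p : ℕ) (R : Subgroup (Matrix.GeneralLinearGroup (Fin 9) F)), p.Prime ∧ q = p ∧ p % 3 = 2 ∧ Cfsg.Geo.IsSymplecticTypeGroup 3 R ∧ Cfsg.Geo.ActsAbsolutelyIrreducibly (Cfsg.Geo.matrixSet R) ∧ R ≤ Cfsg.Geo.similarityGroup (Cfsg.hermForm 9 F q) ∧ Nat.card R = 243 ∧ Nat.card (Subgroup.center R) = 3 ∧ H = Cfsg.Geo.subgroupNormalizer R ⊓ (Cfsg.GU 9 F q ⊓ Cfsg.Geo.specialLinear (Fin 9) F)) ∨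
    (3 ≤ q ∧ ∃ (e : Fin 9 ≃ (Fin 2 → Fin 3)) (P : Matrix.GeneralLinearGroup (Fin 9) F) (f₁ : (Fin 3 → F) → (Fin 3 → F) → F), Cfsg.Geo.IsUnitaryFormPow q f₁ ∧ Cfsg.Geo.IsTensorPowerFormStructure (fun x : F => x ^ q) (Cfsg.hermForm 9 F q) f₁ e P ∧ H = Cfsg.Geo.tensorWreathSubgroup 3 2 e P ⊓ (Cfsg.GU 9 F q ⊓ Cfsg.Geo.specialLinear (Fin 9) F)) ∨
    Cfsg.Geo.InUnitaryResidualClass H := by
  have hHU : H ≤ GU 9 F q := hH.1.le.trans inf_le_left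
  have hH' : IsMaximalIn (SUg 9 F q) H := hH
  obtain ⟨τ, hτ, htv⟩ := exists_isTv (n := 9) q hF (by norm_num)
  have hTW : ∀ (e : Fin 9 ≃ (Fin 2 → Fin 3)) (P : GL (Fin 9) F), ¬ SUg 9 F q ≤ tensorWreathSubgroup 3 2 e P :=
    fun e P hcon => tv_not_mem_tensorWreath (le_refl 3) e P τ htv (hcon hτ)
  rcases umain9 q hF H hHU with hgeo | hres
  swap
  · exact Or.inr (Or.inr (Or.inr (Or.inr (Or.inr (Or.inr (Or.inr (Or.inr (Or.inr hres))))))))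
  rcases hgeo with ⟨W, h0, hW, hle⟩ | ⟨W, h0, hW, hd, hle⟩ | ⟨t, m, D, hD, hle⟩ | ⟨K, hK, hadj, hle⟩ |
    ⟨F₀, r, P, hr, hro, hc, hrat, hle⟩ | ⟨hq, F₀, P, hc, hrat, hle⟩ |
    ⟨p, R, hp, hqp, hp3, h1, h2, h3, h4, h5, h6, hle⟩ | ⟨e, P, f₁, f₂, h1, h2, hT, hle⟩ | ⟨hq, e, P, hT, hle⟩
  · refine Or.inl ⟨W, h0, hW, eq_of_max hH' hle (not_le_subspace_U q hF (by norm_num) W h0 ?_)⟩
    exact totSing_ne_top q (by norm_num) W hW
  · refine Or.inr (Or.inl ⟨W, h0, hW, hd, eq_of_max hH' hle (not_le_subspace_U q hF (by norm_num) W h0 ?_)⟩)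
    rintro rfl
    rw [finrank_top, Module.finrank_fin_fun] at hd
    omega
  · have hdim := Cfsg.Agent.Lib.Helper59.Asch9.decomp_dim9 D hD.decomp
    have ht2 := hD.decomp.two_le
    have htd : t ∣ 9 := ⟨m, hdim.symm⟩
    have ht9 : t ≤ 9 := Nat.le_of_dvd (by norm_num) htd
    have hcases : (t = 9 ∧ m = 1) ∨ (t = 3 ∧ m = 3) := by
      interval_cases t <;> omega
    rcases hcases with ⟨rfl, rfl⟩ | ⟨rfl, rfl⟩
    · exact Or.inr (Or.inr (Or.inl ⟨D, hD, eq_of_max hH' hle (not_le_decomp_U q hF (by norm_num) D hD)⟩))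
    · exact Or.inr (Or.inr (Or.inr (Or.inl ⟨D, hD, eq_of_max hH' hle
        (not_le_decomp_V q hF (by norm_num) (by norm_num) D hD.decomp)⟩)))
  · refine Or.inr (Or.inr (Or.inr (Or.inr (Or.inl ⟨K, hK, hadj, eq_of_max hH' hle ?_⟩))))
    intro hcon
    exact tv_not_mem_fieldNormalizer' (by norm_num) 3 (by norm_num) K hK τ htv (hcon hτ)
  · exact Or.inr (Or.inr (Or.inr (Or.inr (Or.inr (Or.inl ⟨F₀, r, P, hr, hro, hc, hrat,
      eq_of_max hH' hle (not_le_subfield_odd q hF (by norm_num) F₀ r hr hro hc P)⟩)))))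
  · exact Or.inr (Or.inr (Or.inr (Or.inr (Or.inr (Or.inr (Or.inl ⟨hq, F₀, P, hc, hrat,
      eq_of_max hH' hle (not_le_subfield_two q hF (by norm_num) hq F₀ hc P hrat)⟩))))))
  · refine Or.inr (Or.inr (Or.inr (Or.inr (Or.inr (Or.inr (Or.inr (Or.inl ⟨p, R, hp, hqp, hp3, h1, h2, h3, h4, h5,
      eq_of_max hH' hle ?_⟩)))))))
    intro hcon
    exact tv_not_mem_normalizer (by norm_num) R h6 h2 τ htv (hcon hτ)
  · obtain ⟨P', hT', hW, hTP, -⟩ := exists_power_form q hF e P f₁ f₂ h1 h2 hT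
    have hle' : H ≤ tensorWreathSubgroup 3 2 (eW e) P' := by
      rw [hW]
      exact hle.trans (Cfsg.Agent.Lib.Helper38.AschG.tensor_le_wreath e P)
    have heq := eq_of_max hH' hle' (hTW _ _)
    by_cases hq3 : 3 ≤ q
    · exact Or.inr (Or.inr (Or.inr (Or.inr (Or.inr (Or.inr (Or.inr (Or.inr (Or.inl ⟨hq3, eW e, P', hermForm 3 F q,
        (hermForm_unitaryPow q hF 3).1, hT', heq⟩))))))))
    · exfalso
      have hq2 : q = 2 := by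
        have h1 : 1 < Fintype.card F := Fintype.one_lt_card
        rw [hF] at h1
        have : q ≠ 0 := by rintro rfl; simp at h1
        have : q ≠ 1 := by rintro rfl; simp at h1
        omega
      subst hq2
      have h2F : (2 : F) = 0 := by
        have h4 : ((Fintype.card F : ℕ) : F) = 0 := Nat.cast_card_eq_zero F
        rw [hF] at h4
        have h5 : (2 : F) ^ 2 = 0 := by exact_mod_cast h4
        exact pow_eq_zero_iff (by norm_num) |>.1 h5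
      obtain ⟨s, hs1, hs2, hs3⟩ := exists_swap 2 hF h2F e P' hT'
      apply hs3
      rw [hTP]
      apply hle
      rw [heq]
      exact ⟨hs1, hs2⟩
  · exact Or.inr (Or.inr (Or.inr (Or.inr (Or.inr (Or.inr (Or.inr (Or.inr (Or.inl ⟨hq, e, P, hermForm 3 F q,
      (hermForm_unitaryPow q hF 3).1, hT, eq_of_max hH' hle (hTW _ _)⟩))))))))

end Cfsg.Agent.Lib.Helper59.ASU9
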