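import Cfsg.Agent.Lib.Helper59.ASU9.STRU
import Cfsg.Agent.Lib.Helper59.ASU9.NOALT
import Cfsg.Agent.Lib.Helper59.ASU9.CaseAU
import Cfsg.Agent.Lib.Helper59.ASU9.CaseBU
import Cfsg.Agent.Lib.Helper59.Asch9.Conv

/-! Ladder ASU9 (S5832): Aschbacher's theorem for subgroups of GU_9(q). -/

set_option autoImplicit false

namespace Cfsg.Agent.Lib.Helper59.ASU9

open Cfsg Cfsg.Geo Cfsg.Agent.Lib.Helper77.Asch Cfsg.Agent.Lib.Helper32.AschU Cfsg.Agent.Lib.Helper47.UC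
open scoped MatrixGroups Matrix Kronecker

variable {F : Type*} [Field F]

theorem InGeo9.mono [Fintype F] {q : ℕ} {H K : Subgroup (GL (Fin 9) F)} (h : H ≤ K) (hK : InGeo9 q K) :
    InGeo9 q H := by
  rcases hK with ⟨W, h0, hW, hle⟩ | ⟨W, h0, hW, hd, hle⟩ | ⟨t, m, D, hD, hle⟩ | ⟨A, hA, hadj, hle⟩ |
    ⟨F₀, r, P, hr, hro, hc, hrat, hle⟩ | ⟨hq, F₀, P, hc, hrat, hle⟩ |
    ⟨p, R, hp, hqp, hp3, h1, h2, h3, h4, h5, h6, hle⟩ | ⟨e, P, f₁, f₂, h1, h2, hT, hle⟩ | ⟨hq, e, P, hT, hle⟩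
  · exact Or.inl ⟨W, h0, hW, h.trans hle⟩
  · exact Or.inr (Or.inl ⟨W, h0, hW, hd, h.trans hle⟩)
  · exact Or.inr (Or.inr (Or.inl ⟨t, m, D, hD, h.trans hle⟩))
  · exact Or.inr (Or.inr (Or.inr (Or.inl ⟨A, hA, hadj, h.trans hle⟩)))
  · exact Or.inr (Or.inr (Or.inr (Or.inr (Or.inl ⟨F₀, r, P, hr, hro, hc, hrat, h.trans hle⟩))))
  · exact Or.inr (Or.inr (Or.inr (Or.inr (Or.inr (Or.inl ⟨hq, F₀, P, hc, hrat, h.trans hle⟩)))))
  · exact Or.inr (Or.inr (Or.inr (Or.inr (Or.inr (Or.inr (Or.inl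
      ⟨p, R, hp, hqp, hp3, h1, h2, h3, h4, h5, h6, h.trans hle⟩))))))
  · exact Or.inr (Or.inr (Or.inr (Or.inr (Or.inr (Or.inr (Or.inr (Or.inl
      ⟨e, P, f₁, f₂, h1, h2, hT, h.trans hle⟩)))))))
  · exact Or.inr (Or.inr (Or.inr (Or.inr (Or.inr (Or.inr (Or.inr (Or.inr ⟨hq, e, P, hT, h.trans hle⟩)))))))

theorem geoV_to_geo9 [Fintype F] (q : ℕ) (hF : Fintype.card F = q ^ 2) (G : Subgroup (GL (Fin 9) F))
    (h : InGeoV q G) : InGeo9 q G := by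
  rcases h with ⟨W, h0, hW, hle⟩ | ⟨W, h0, hW, hd, hle⟩ | ⟨t, m, D, hD, hle⟩ | ⟨m, D, hD, hts, hle⟩ |
    ⟨r, K, hr, hro, hK, hadj, hle⟩ | ⟨s, k, e, P, f₁, f₂, hs, hk, h1, h2, hT, hle⟩ |
    ⟨F₀, r, P, hr, hro, hc, hrat, hle⟩ | ⟨F₀, P, ζ, hc, hζ, hζq, hrat, hdiag, hle⟩ | ⟨hq, F₀, P, hc, hrat, hle⟩
  · exact Or.inl ⟨W, h0, hW, hle⟩
  · exact Or.inr (Or.inl ⟨W, h0, hW, hd, hle⟩)
  · exact Or.inr (Or.inr (Or.inl ⟨t, m, D, hD, hle⟩))
  · exfalso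
    have := Cfsg.Agent.Lib.Helper59.Asch9.decomp_dim9 D hD
    omega
  · have hd : r ∣ 9 := deg_dvd (by norm_num) r K hK
    have hr3 : r = 3 := by
      have : r ∣ 3 ^ 2 := by simpa using hd
      exact (Nat.prime_dvd_prime_iff_eq hr Nat.prime_three).1 (hr.dvd_of_dvd_pow this)
    subst hr3
    exact Or.inr (Or.inr (Or.inr (Or.inl ⟨K, hK, hadj, hle⟩)))
  · have hc := Fintype.card_congr e
    simp only [Fintype.card_fin, Fintype.card_prod] at hc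
    have hsk : s = 3 ∧ k = 3 := by
      have h1 : s ∣ 9 := ⟨k, hc⟩
      have h9 : s ≤ 9 := Nat.le_of_dvd (by norm_num) h1
      interval_cases s <;> omega
    obtain ⟨rfl, rfl⟩ := hsk
    exact Or.inr (Or.inr (Or.inr (Or.inr (Or.inr (Or.inr (Or.inr (Or.inl ⟨e, P, f₁, f₂, h1, h2, hT, hle⟩)))))))
  · exact Or.inr (Or.inr (Or.inr (Or.inr (Or.inl ⟨F₀, r, P, hr, hro, hc, hrat, hle⟩))))
  · exact (no_alt_odd q hF (by decide) F₀ P ζ hζ hdiag).elim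
  · exact Or.inr (Or.inr (Or.inr (Or.inr (Or.inr (Or.inl ⟨hq, F₀, P, hc, hrat, hle⟩)))))

theorem umain9 [Fintype F] (q : ℕ) (hF : Fintype.card F = q ^ 2)
    (H : Subgroup (GL (Fin 9) F)) (hH : H ≤ GU 9 F q) :
    InGeo9 q H ∨ InUnitaryResidualClass H := by
  classical
  have hn0 : 0 < 9 := by norm_num
  have hodd : Odd 9 := by decide
  by_cases hirr : ActsIrreducibly (matrixSet H)
  swap
  · left
    obtain ⟨W₀, h0, h1, hW⟩ := red H hirr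
    rcases ured q hF hodd H hH W₀ h0 h1 hW with h | h
    · exact Or.inl h
    · exact Or.inr (Or.inl h)
  set Z : Subgroup (GL (Fin 9) F) := scalars (Fin 9) F with hZ
  set Hh : Subgroup (GL (Fin 9) F) := H ⊔ Z with hHh
  have hHle : H ≤ Hh := le_sup_left
  have hZle : Z ≤ Hh := le_sup_right
  have hHhirr : ActsIrreducibly (matrixSet Hh) := Cfsg.Agent.Lib.Helper32.AschU.irr_mono hHle hirr
  have hHhs : Hh ≤ similarityGroup (hermForm 9 F q) :=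
    sup_le (hH.trans (GU_le_sim q)) (scalars_le_sim q)
  have hZc : ∀ z ∈ Z, ∀ g : GL (Fin 9) F, g * z = z * g := Cfsg.Agent.Lib.Helper32.AschU.scalars_central
  have hZlt : Z < Hh := by
    refine lt_of_le_of_ne hZle ?_
    intro he
    exact Cfsg.Agent.Lib.Helper32.AschU.not_irr_of_le_scalars (by norm_num) (H := H)
      (by rw [← hZ, he]; exact hHle) hirr
  obtain ⟨N, hm⟩ := exists_minOver Hh Z hZlt
  rcases dichU q hF hn0 Hh N hHhs hm.le hm.norm hHhirr with hgeo | hNZ | hNabs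
  · exact Or.inl (InGeo9.mono hHle (geoV_to_geo9 q hF Hh hgeo))
  · exact absurd hNZ (not_le_of_gt hm.lt)
  by_cases hab : ⁅N, N⁆ ≤ Z
  · exact Or.inl (InGeo9.mono hHle (caseA_U q hF Hh N hHhs hm hab hNabs))
  by_cases hs : ∀ M : Subgroup (GL (Fin 9) F), Z ≤ M → M ≤ N → NormBy N M → M = Z ∨ M = N
  swap
  · exact Or.inl (InGeo9.mono hHle (caseB_U q hF Hh N hHhs hm hab hNabs hs))
  -- quasisimple case
  obtain ⟨hperf, hPZ⟩ := perfect_core Hh Z N hZc hm hab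
  set P : Subgroup (GL (Fin 9) F) := ⁅N, N⁆ with hP
  have hPH : P ≤ H := (Subgroup.commutator_mono hm.le hm.le).trans (commutator_sup_le H Z hZc)
  have hPU : P ≤ GU 9 F q := hPH.trans hH
  have hPabs : ActsAbsolutelyIrreducibly (matrixSet P) := absIrr_of_sup P (by rw [← hZ, hPZ]; exact hNabs)
  have hPnorm : NormBy Hh P := Cfsg.Agent.Lib.Helper32.AschU.normBy_commutator hm.norm
  have hHP : H ≤ subgroupNormalizer P := hHle.trans (normBy_le_normalizer hPnorm)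
  by_cases hsub : ∃ F₀ : Subfield F, F₀ ≠ ⊤ ∧ RealisableOver F₀ (matrixSet P)
  · left
    obtain ⟨F₀, hF₀, B, hB⟩ := hsub
    obtain ⟨F₁, r, hle, hr, hc⟩ := exists_prime_subfield F₀ hF₀
    exact geo9_of_realisable q hF H P hPabs hPU hHP F₁ r hr hc B
      (fun s hs i j => hle (hB s hs i j))
  right
  have hPnZ : ¬ ⁅P, P⁆ ≤ Z := by
    rw [hperf]
    exact hab
  refine ⟨P, ⟨hPH, fun h hh x hx => hPnorm h (hHle hh) x hx, hperf,
    simple_quot Z N P hPZ hm.lt hs, nonabelian_quot Z P hPnZ, ?_, hPabs, ?_⟩, ?_, ?_⟩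
  · intro h _ hcent
    have := centralizes_of_perfect Z P hZc hperf h hcent
    exact mem_scalars_of_commutes hn0 P hPabs h this
  · intro F₀ hF₀ hreal
    exact hsub ⟨F₀, hF₀, hreal⟩
  · rintro ⟨Q, hQ, hfix⟩
    obtain ⟨M, hM⟩ := desc1 q hF P hPU Q hQ hfix
    exact hsub (desc2 q hF hn0 P hPabs M hM)
  · rintro ⟨f, hf, _⟩
    exact no_symplectic_odd hodd f hf

end Cfsg.Agent.Lib.Helper59.ASU9
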