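import Cfsg.Agent.Lib.Helper59.ASU9.Defs
import Cfsg.Agent.Lib.Helper47.UC.MainB

set_option autoImplicit false

namespace Cfsg.Agent.Lib.Helper59.ASU9

open Cfsg Cfsg.Geo Cfsg.Agent.Lib.Helper77.Asch Cfsg.Agent.Lib.Helper77.AschG Cfsg.Agent.Lib.Helper32.AschU
  Cfsg.Agent.Lib.Helper80.AS Cfsg.Agent.Lib.Helper47.UC
open scoped MatrixGroups Matrix Kronecker

variable {n : ℕ} {F : Type*} [Field F]

/-- STRU = `Helper47.UC.normal_cases_U`. -/
theorem dichU [Fintype F] (q : ℕ) (hF : Fintype.card F = q ^ 2) (hn : 0 < n) (G N : Subgroup (GL (Fin n) F))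
    (hGs : G ≤ similarityGroup (hermForm n F q)) (hNG : N ≤ G) (hnorm : NormBy G N)
    (hG : ActsIrreducibly (matrixSet G)) :
    InGeoV q G ∨ N ≤ scalars (Fin n) F ∨ ActsAbsolutelyIrreducibly (matrixSet N) :=
  normal_cases_U q hF hn G hGs hG N hNG hnorm

end Cfsg.Agent.Lib.Helper59.ASU9
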